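import Cfsg.Agent.H99.Aschbacher.Symplectic
import Cfsg.Agent.H98.MaximalSp
import Cfsg.Agent.H2.SpGL
import Cfsg.Agent.H1.TensorCases
import Cfsg.Agent.H98.Decomp

/-!
The symplectic group lies in no member of the classes: transitivity on non-zero vectors, and the rank
argument for normalisers of fields and of symplectic-type groups.
-/

set_option autoImplicit false

open scoped MatrixGroups Matrix Kronecker

namespace Cfsg.Agent.H1.SpList

open Cfsg.Geo Cfsg.Agent.H98 H99.Asch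

variable {F : Type*} [Field F] {m : ℕ}

local notation "V" => (Fin m ⊕ Fin m → F)
local notation "Mat" => Matrix (Fin m ⊕ Fin m) (Fin m ⊕ Fin m) F
local notation "sG" => spGL m F

/-- The symplectic group is transitive on non-zero vectors. -/
theorem exists_sp_mulVec {v w : V} (hv : v ≠ 0) (hw : w ≠ 0) : ∃ g ∈ sG, (g : Mat) *ᵥ v = w := by
  obtain ⟨A, hA⟩ := H2.exists_map_vec hv hw
  exact ⟨(H2.spEquivSpGL m F A : spGL m F), (H2.spEquivSpGL m F A).2, hA⟩

/-- A set of vectors preserved by a group containing `Sp` and containing a non-zero vector contains all. -/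
theorem eq_all_of_invariant {S : Subgroup (GL (Fin m ⊕ Fin m) F)} (hS : sG ≤ S) (p : V → Prop)
    (hp : ∀ g ∈ S, ∀ v, p v → p ((g : Mat) *ᵥ v)) {v₀ : V} (h0 : v₀ ≠ 0) (hv₀ : p v₀) {w : V} (hw : w ≠ 0) :
    p w := by
  obtain ⟨g, hg, rfl⟩ := exists_sp_mulVec h0 hw
  exact hp g (hS hg) v₀ hv₀

theorem sp_not_le_subspace {W : Submodule F V} (h0 : W ≠ ⊥) (h1 : W ≠ ⊤) : ¬ sG ≤ subspaceStabilizer W := by
  intro h
  obtain ⟨v, hv, hv0⟩ := Submodule.exists_mem_ne_zero_of_ne_bot h0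
  refine h1 (eq_top_iff.2 fun w _ => ?_)
  by_cases hw : w = 0
  · subst hw; exact W.zero_mem
  · exact eq_all_of_invariant h (· ∈ W) (fun g hg v hv => (hg v).1 hv) hv0 hv hw

theorem sp_not_le_decomposition {t k : ℕ} {D : Fin t → Submodule F V} (hD : IsMDecomposition k D) :
    ¬ sG ≤ decompositionStabilizer D := by
  intro h
  have h2 := hD.two_le
  have hne : ∀ i, D i ≠ ⊥ := fun i e => by
    have h3 := hD.finrank_eq i
    rw [e, finrank_bot] at h3
    exact hD.pos.ne h3
  let i0 : Fin t := ⟨0, by omega⟩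
  let i1 : Fin t := ⟨1, by omega⟩
  have h01 : i0 ≠ i1 := by simp [i0, i1]
  obtain ⟨v, hv, hv0⟩ := Submodule.exists_mem_ne_zero_of_ne_bot (hne i0)
  obtain ⟨u, hu, hu0⟩ := Submodule.exists_mem_ne_zero_of_ne_bot (hne i1)
  have hcv : H98.comp hD i0 (v + u) = v := by
    rw [map_add, H98.comp_same hD hv, H98.comp_other hD h01.symm hu, add_zero]
  have hcu : H98.comp hD i1 (v + u) = u := by
    rw [map_add, H98.comp_other hD h01 hv, H98.comp_same hD hu, zero_add]
  have hvu : v + u ≠ 0 := fun e => hv0 (by rw [← hcv, e, map_zero])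
  obtain ⟨j, hj⟩ := eq_all_of_invariant h (fun v => ∃ j, v ∈ D j)
    (fun g hg v ⟨j, hj⟩ => by
      obtain ⟨σ, hσ⟩ := hg
      exact ⟨σ j, by rw [← hσ j]; exact ⟨v, hj, by simp⟩⟩) hv0 ⟨i0, hv⟩ hvu
  by_cases hj0 : i0 = j
  · exact hu0 (by rw [← hcu, H98.comp_other hD (fun e => h01 (hj0.trans e)) hj])
  · exact hv0 (by rw [← hcv, H98.comp_other hD (Ne.symm hj0) hj])

/-- A linear map commuting with all symplectic transvections is scalar. -/
theorem scalar_of_commute_sp (hm : 1 ≤ m) {x : Mat}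
    (h : ∀ v : V, x * (spTrans v 1 : Mat) = (spTrans v 1 : Mat) * x) : ∃ c : F, x = c • 1 := by
  have hline : ∀ v : V, ∃ c : F, x *ᵥ v = c • v := by
    intro v
    by_cases hv : v = 0
    · exact ⟨0, by simp [hv]⟩
    obtain ⟨u, hu⟩ : ∃ u, H2.sympBilin m F u v ≠ 0 := by
      by_contra hc
      push Not at hc
      exact hv ((H2.sympBilin_nondegenerate m F).2 v hc)
    have e := congrArg (fun M : Mat => M *ᵥ u) (h v)
    simp only [← Matrix.mulVec_mulVec, spTrans_mulVec, one_mul, Matrix.mulVec_add, Matrix.mulVec_smul] at e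
    refine ⟨H2.sympBilin m F (x *ᵥ u) v / H2.sympBilin m F u v, ?_⟩
    have e' := add_left_cancel e
    rw [div_eq_inv_mul, mul_smul, ← e', smul_smul, inv_mul_cancel₀ hu, one_smul]
  obtain ⟨i, hi⟩ : ∃ i : Fin m ⊕ Fin m, True := ⟨Sum.inl ⟨0, hm⟩, trivial⟩
  choose c hc using fun j : Fin m ⊕ Fin m => hline (Pi.single j 1)
  refine ⟨c i, Matrix.ext_of_mulVec_single fun j => ?_⟩
  rw [Matrix.smul_mulVec, Matrix.one_mulVec]
  by_cases hji : j = i
  · subst hji; exact hc j
  obtain ⟨d, hd⟩ := hline (Pi.single i 1 + Pi.single j 1)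
  rw [Matrix.mulVec_add, hc, hc] at hd
  have h1 := congrFun hd i
  have h2 := congrFun hd j
  simp [hji, Ne.symm hji] at h1 h2
  rw [hc j, h2, h1]

/-- The difference between a conjugate by a transvection and the original has small image. -/
theorem trans_conj_sub_mem (v : V) (x : GL (Fin m ⊕ Fin m) F) (w : V) :
    ((spTrans v 1 * x * (spTrans v 1)⁻¹ * x⁻¹ : GL (Fin m ⊕ Fin m) F) : Mat) *ᵥ w - w ∈
      Submodule.span F ({v, (x : Mat) *ᵥ v} : Set V) := by
  set t := spTrans v (1 : F)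
  set u := ((t⁻¹ : GL (Fin m ⊕ Fin m) F) : Mat) *ᵥ (((x⁻¹ : GL (Fin m ⊕ Fin m) F) : Mat) *ᵥ w) with hu
  have hw : (x : Mat) *ᵥ ((t : Mat) *ᵥ u) = w := by rw [hu, H98.gl_mulVec_inv, H98.gl_mulVec_inv]
  have e : ((t * x * t⁻¹ * x⁻¹ : GL (Fin m ⊕ Fin m) F) : Mat) *ᵥ w = (t : Mat) *ᵥ ((x : Mat) *ᵥ u) := by
    rw [Units.val_mul, Units.val_mul, Units.val_mul, ← Matrix.mulVec_mulVec, ← Matrix.mulVec_mulVec,
      ← Matrix.mulVec_mulVec]
  rw [e, ← hw]
  simp only [t, spTrans_mulVec, Matrix.mulVec_add, Matrix.mulVec_smul, add_sub_add_left_eq_sub]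
  exact Submodule.sub_mem _ (Submodule.smul_mem _ _ (Submodule.subset_span (by simp)))
    (Submodule.smul_mem _ _ (Submodule.subset_span (by simp)))

theorem rank_trans_conj_le (v : V) (x : GL (Fin m ⊕ Fin m) F) :
    (((spTrans v 1 * x * (spTrans v 1)⁻¹ * x⁻¹ : GL (Fin m ⊕ Fin m) F) : Mat) - 1).rank ≤ 2 := by
  classical
  refine le_trans (Submodule.finrank_mono ?_)
    ((finrank_span_le_card ({v, (x : Mat) *ᵥ v} : Set V)).trans ?_)
  · rintro _ ⟨w, rfl⟩
    rw [Matrix.mulVecLin_apply, Matrix.sub_mulVec, Matrix.one_mulVec]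
    exact trans_conj_sub_mem v x w
  · simp only [Set.toFinset_insert, Set.toFinset_singleton]
    exact Finset.card_le_two

theorem rank_smul_one {c : F} (hc : c ≠ 0) :
    (c • (1 : Mat)).rank = Fintype.card (Fin m ⊕ Fin m) :=
  Matrix.rank_of_isUnit _ (IsUnit.of_mul_eq_one (c⁻¹ • 1) (by
    rw [smul_mul_smul_comm, one_mul, mul_inv_cancel₀ hc, one_smul]))

theorem rank_add_le (A B : Mat) : (A + B).rank ≤ A.rank + B.rank := by
  rw [Matrix.rank, Matrix.rank, Matrix.rank]
  refine le_trans (Submodule.finrank_mono ?_) (Submodule.finrank_add_le_finrank_add_finrank _ _)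
  rintro _ ⟨v, rfl⟩
  exact Submodule.mem_sup.2 ⟨A *ᵥ v, ⟨v, rfl⟩, B *ᵥ v, ⟨v, rfl⟩, (Matrix.add_mulVec A B v).symm⟩

/-- The symplectic group normalises no extension field. -/
theorem sp_not_le_field (hm : 2 ≤ m) {r : ℕ} (hr : r.Prime) {K : Subalgebra F Mat}
    (hK : IsFieldSubalgebra r K) : ¬ sG ≤ subalgebraNormalizer K := by
  intro h
  have hbot : K ≤ (⊥ : Subalgebra F Mat) := by
    intro x hx
    by_cases hx0 : x = 0
    · subst hx0; exact Subalgebra.zero_mem _
    obtain ⟨y, hy, hxy⟩ := hK.inv x hx hx0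
    obtain ⟨X, hX⟩ : ∃ X : GL (Fin m ⊕ Fin m) F, (X : Mat) = x :=
      ⟨⟨x, y, hxy, by rw [hK.comm y hy x hx]; exact hxy⟩, rfl⟩
    have hXi : ((X⁻¹ : GL (Fin m ⊕ Fin m) F) : Mat) = y :=
      Units.inv_eq_of_mul_eq_one_right (by rw [hX]; exact hxy)
    obtain ⟨c, hc⟩ := scalar_of_commute_sp (x := x) (by omega) fun v => by
      set t := spTrans v (1 : F)
      have hz : ((t * X * t⁻¹ * X⁻¹ : GL (Fin m ⊕ Fin m) F) : Mat) - 1 ∈ K := by
        refine K.sub_mem ?_ K.one_mem
        rw [Units.val_mul, Units.val_mul, Units.val_mul, hX, hXi]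
        exact K.mul_mem ((h (spTrans_mem v 1) x).1 hx) hy
      by_contra hne
      have hne' : ((t * X * t⁻¹ * X⁻¹ : GL (Fin m ⊕ Fin m) F) : Mat) - 1 ≠ 0 := by
        intro e
        have e1 : t * X * t⁻¹ * X⁻¹ = 1 := Units.ext (sub_eq_zero.1 e)
        rw [mul_inv_eq_one, mul_inv_eq_iff_eq_mul] at e1
        exact hne (by rw [← hX, ← Units.val_mul, ← Units.val_mul, e1])
      obtain ⟨z, -, hzz⟩ := hK.inv _ hz hne'
      have := rank_trans_conj_le v X
      rw [Matrix.rank_of_isUnit _ (IsUnit.of_mul_eq_one z hzz)] at this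
      simp at this
      omega
    rw [hc, ← Algebra.algebraMap_eq_smul_one]
    exact Subalgebra.algebraMap_mem _ _
  have : Nonempty (Fin m ⊕ Fin m) := ⟨Sum.inl ⟨0, by omega⟩⟩
  have h1 : Module.finrank F K = 1 := by rw [le_bot_iff.1 hbot]; exact Subalgebra.finrank_bot
  have := hr.two_le
  rw [hK.finrank_eq] at h1
  omega

/-- The symplectic group stabilises no tensor decomposition. -/
theorem sp_not_le_tensor {n₁ n₂ : ℕ} (h1 : 2 ≤ n₁) (h2 : 2 ≤ n₂) (e : (Fin m ⊕ Fin m) ≃ Fin n₁ × Fin n₂)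
    (P : GL (Fin m ⊕ Fin m) F) : ¬ sG ≤ tensorProductSubgroup n₁ n₂ e P := by
  intro h
  set Φ := TensorNM.tensorEquiv e P
  let a0 : Fin n₁ := ⟨0, by omega⟩
  let a1 : Fin n₁ := ⟨1, by omega⟩
  let b0 : Fin n₂ := ⟨0, by omega⟩
  let b1 : Fin n₂ := ⟨1, by omega⟩
  let w : Fin n₁ × Fin n₂ → F := fun p => if p = (a0, b0) ∨ p = (a1, b1) then 1 else 0
  have hv0 : Φ (TensorNM.pure (Pi.single a0 1) (Pi.single b0 1)) ≠ 0 := fun e0 => by
    have := congrFun (Φ.injective (e0.trans (map_zero Φ).symm)) (a0, b0)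
    simp [TensorNM.pure] at this
  have hw0 : Φ w ≠ 0 := fun e0 => by
    have := congrFun (Φ.injective (e0.trans (map_zero Φ).symm)) (a0, b0)
    simp [w] at this
  obtain ⟨x, z, hxz⟩ := eq_all_of_invariant h (fun v => ∃ x z, v = Φ (TensorNM.pure x z))
    (fun g hg v ⟨x, z, hv⟩ => by
      obtain ⟨a, b, hab⟩ := TensorNM.exists_action e P g hg
      exact ⟨a x, b z, hv ▸ hab x z⟩) hv0 ⟨_, _, rfl⟩ hw0
  have hp := Φ.injective hxz
  have e00 := congrFun hp (a0, b0)
  have e11 := congrFun hp (a1, b1)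
  have e01 := congrFun hp (a0, b1)
  simp [TensorNM.pure, w, a0, a1, b0, b1] at e00 e11 e01
  rcases e01 with hz | hz <;> simp_all

/-- The symplectic group lies in no subfield group. -/
theorem sp_not_le_subfield [Finite F] (hm : 1 ≤ m) {F₀ : Subfield F} {r : ℕ} (hr : r.Prime)
    (hc : Nat.card F = Nat.card F₀ ^ r) (P : GL (Fin m ⊕ Fin m) F) : ¬ sG ≤ subfieldSubgroup F₀ P := by
  intro h
  classical
  obtain ⟨α, hα⟩ : ∃ α : F, α ∉ F₀ := by
    by_contra hall
    push Not at hall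
    have h1 : Nat.card F₀ = Nat.card F := Nat.card_congr (Equiv.subtypeUnivEquiv hall)
    rw [h1] at hc
    have h2 := Nat.pow_right_injective (Finite.one_lt_card : 1 < Nat.card F)
      (show Nat.card F ^ 1 = Nat.card F ^ r by rw [pow_one]; exact hc)
    exact hr.ne_one h2.symm
  let a : Fin m ⊕ Fin m := Sum.inl ⟨0, hm⟩
  let b : Fin m ⊕ Fin m := Sum.inr ⟨0, hm⟩
  have hab : a ≠ b := by simp [a, b]
  let Q : V → Prop := fun v => ∃ (s : F) (u : V), (∀ i, u i ∈ F₀) ∧ v = (P : Mat) *ᵥ (s • u)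
  have hw0 : (P : Mat) *ᵥ (Pi.single a 1 + α • Pi.single b 1) ≠ 0 := fun e => by
    have := congrFun (gl_mulVec_injective P (e.trans (Matrix.mulVec_zero _).symm)) a
    simp [hab] at this
  have hv0 : (P : Mat) *ᵥ (Pi.single a 1) ≠ 0 := fun e => by
    have := congrFun (gl_mulVec_injective P (e.trans (Matrix.mulVec_zero _).symm)) a
    simp at this
  obtain ⟨s, u, hu, he⟩ := eq_all_of_invariant h Q (fun g hg v ⟨s, u, hu, hv⟩ => by
    obtain ⟨g', hg', rfl⟩ := hg
    obtain ⟨x, ⟨x₀, rfl⟩, z, hz, rfl⟩ := Subgroup.mem_sup_of_normal_right.1 hg'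
    obtain ⟨d, hd⟩ := (mem_scalars_iff z).1 hz
    refine ⟨(d : F) * s, (Matrix.GeneralLinearGroup.map (F₀.subtype : F₀ →+* F) x₀ : Mat) *ᵥ u, fun i => ?_, ?_⟩
    · change ∑ j : Fin m ⊕ Fin m, _ ∈ F₀
      exact F₀.sum_mem fun j _ => F₀.mul_mem ((x₀ : Matrix _ _ F₀) i j).2 (hu j)
    · subst hv
      simp only [MulEquiv.coe_toMonoidHom, MulAut.conj_apply, Units.val_mul, ← Matrix.mulVec_mulVec]
      rw [H98.gl_inv_mulVec, hd, Matrix.smul_mulVec, Matrix.one_mulVec, smul_smul, Matrix.mulVec_smul,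
        Matrix.mulVec_smul]) hv0
    ⟨1, Pi.single a 1, fun i => by by_cases hi : i = a <;> simp [hi, F₀.one_mem, F₀.zero_mem], by simp⟩ hw0
  have hp := gl_mulVec_injective P he
  have ea := congrFun hp a
  have eb := congrFun hp b
  simp [hab, hab.symm] at ea eb
  refine hα ?_
  have hua : u a ≠ 0 := fun e => by simp [e] at ea
  rw [show α = u b / u a by rw [eb, eq_div_iff hua]; linear_combination (-u b) * ea]
  exact F₀.div_mem (hu b) (hu a)

/-- The symplectic group fixes no quadratic form up to scalars. -/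
theorem sp_not_le_quad [Finite F] (hm : 2 ≤ m) {Q : V → F} (hQ : IsNondegenerateQuadraticForm Q)
    (hpol : ∀ u v, QuadraticMap.polar Q u v = sympForm m F u v) (h2 : (2 : F) = 0) :
    ¬ sG ≤ quadSimilarityGroup Q := by
  intro h
  have : Fintype F := Fintype.ofFinite F
  have hsm : ∀ (c : F) (v : V), Q (c • v) = c ^ 2 * Q v := hQ.smul
  have hadd : ∀ u v : V, Q (u + v) = Q u + Q v + sympForm m F u v := fun u v => by
    rw [← hpol, QuadraticMap.polar]; ring
  let i : Fin m := ⟨0, by omega⟩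
  let j : Fin m := ⟨1, by omega⟩
  set a : V := Pi.single (Sum.inl i) 1
  set b : V := Pi.single (Sum.inl j) 1
  set a' : V := Pi.single (Sum.inr i) 1
  obtain ⟨v₀, hv₀0, hv₀⟩ : ∃ v : V, v ≠ 0 ∧ Q v = 0 := by
    by_cases hb : Q b = 0
    · exact ⟨b, by simp [b], hb⟩
    have : CharP F 2 := by
      have h3 : ringChar F ∣ 2 := ringChar.dvd (by exact_mod_cast h2)
      exact ringChar.eq_iff.1 (((Nat.dvd_prime Nat.prime_two).1 h3).resolve_left CharP.ringChar_ne_one)
    obtain ⟨c, hc⟩ := FiniteField.isSquare_of_char_two (ringChar.eq F 2) (Q a / Q b)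
    refine ⟨a + c • b, fun e => ?_, ?_⟩
    · have := congrFun e (Sum.inl i)
      simp [a, b, i, j] at this
    · have e0 : sympForm m F a (c • b) = 0 := by
        rw [← H2.sympBilin_apply, map_smul, H2.sympBilin_apply]
        simp [a, b, H2.sympForm_single_inl]
      rw [hadd, hsm, e0, sq, ← hc, div_mul_cancel₀ _ hb]
      linear_combination (Q a) * h2
  have hall : ∀ w : V, w ≠ 0 → Q w = 0 := fun w hw =>
    eq_all_of_invariant h (fun v => Q v = 0) (fun g hg v hv => by
      obtain ⟨c, hc⟩ := hg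
      rw [hc, hv, mul_zero]) hv₀0 hv₀ hw
  have ha' : a + a' ≠ 0 := fun e => by
    have := congrFun e (Sum.inl i)
    simp [a, a'] at this
  have h1 := hadd a a'
  have hna : a ≠ 0 := fun e => by
    have := congrFun e (Sum.inl i)
    simp [a] at this
  have hna' : a' ≠ 0 := fun e => by
    have := congrFun e (Sum.inr i)
    simp [a'] at this
  rw [hall _ hna, hall _ hna', hall _ ha', zero_add, zero_add] at h1
  simp [a, a', H2.sympForm_single_inl] at h1

/-- The second centre, used against normalisers of symplectic-type groups. -/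
theorem exists_second (hm : 1 ≤ m) {r : ℕ} {R : Subgroup (GL (Fin m ⊕ Fin m) F)} (hr : r.Prime)
    (hR : IsPGroup r R) [Finite F] (habs : ActsAbsolutelyIrreducibly (matrixSet R)) :
    ∃ A : Subgroup (GL (Fin m ⊕ Fin m) F), (∀ x, x ∈ A ↔ x ∈ R ∧ ∀ y ∈ R, y * x * y⁻¹ * x⁻¹ ∈ scalars _ F) ∧
      ¬ A ≤ scalars _ F := by
  classical
  have : Fact r.Prime := ⟨hr⟩
  have hne : ¬ R ≤ scalars (Fin m ⊕ Fin m) F := by
    intro hRs
    obtain ⟨c, hc⟩ := habs.2 (Matrix.single (Sum.inl ⟨0, hm⟩) (Sum.inr ⟨0, hm⟩) (1 : F)) (by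
      rintro _ ⟨s, hs, rfl⟩
      obtain ⟨d, hd⟩ := (mem_scalars_iff s).1 (hRs hs)
      show _ * (s : Mat) = (s : Mat) * _
      rw [hd, mul_smul_comm, smul_mul_assoc, mul_one, one_mul])
    have := congrFun (congrFun hc (Sum.inl ⟨0, hm⟩)) (Sum.inr ⟨0, hm⟩)
    simp at this
  exact exists_second_center R (scalars _ F) hR hne

set_option maxHeartbeats 1000000 in
/-- Commutators of the second centre with transvections are trivial or reflections in a plane. -/
theorem sp_not_le_symplecticType [Finite F] (hm : 2 ≤ m) {r : ℕ} {R : Subgroup (GL (Fin m ⊕ Fin m) F)}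
    (hr : r.Prime) (hR : IsPGroup r R) (habs : ActsAbsolutelyIrreducibly (matrixSet R))
    (h4 : m = 2 → (2 : F) ≠ 0 ∧ R ≤ similarityGroup (sympForm m F)) :
    ¬ sG ≤ subgroupNormalizer R := by
  classical
  intro h
  obtain ⟨A, hmemA, hAns⟩ := exists_second (by omega) hr hR habs
  have hconj : ∀ g ∈ sG, ∀ y ∈ R, g * y * g⁻¹ ∈ R := fun g hg y hy =>
    ((Subgroup.mem_normalizer_iff).1 (h hg) y).1 hy
  have hzA : ∀ x ∈ A, ∀ v : V, spTrans v 1 * x * (spTrans v 1)⁻¹ * x⁻¹ ∈ A := by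
    intro x hx v
    set t := spTrans v (1 : F)
    refine A.mul_mem ?_ (A.inv_mem hx)
    rw [hmemA]
    refine ⟨hconj t (spTrans_mem v 1) x ((hmemA x).1 hx).1, fun y hy => ?_⟩
    have hc := ((hmemA x).1 hx).2 _ (hconj t⁻¹ (inv_mem (spTrans_mem v 1)) y hy)
    rw [inv_inv] at hc
    have := scalars_normal.conj_mem _ hc t
    convert this using 1
    group
  -- a non-trivial commutator `z` has an eigenspace decomposition
  have hz : ∀ z ∈ A, ((z : Mat) - 1).rank ≤ 2 → z ≠ 1 → m = 2 ∧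
      ∃ b : F, b ≠ 1 ∧ 2 ≤ Module.finrank F (LinearMap.ker (((b • (z : Mat)) - 1).mulVecLin)) := by
    intro z hzA hrk hz1
    have hnS : z ∉ scalars (Fin m ⊕ Fin m) F := by
      intro hzs
      obtain ⟨b, hb⟩ := (mem_scalars_iff z).1 hzs
      have hb1 : (b : F) - 1 ≠ 0 := fun e => hz1 (Units.ext (by rw [hb, sub_eq_zero.1 e, one_smul]; rfl))
      rw [hb, show (b : F) • (1 : Mat) - 1 = ((b : F) - 1) • 1 by rw [sub_smul, one_smul],
        rank_smul_one hb1] at hrk
      simp at hrk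
      omega
    obtain ⟨y, hy, hyz⟩ : ∃ y ∈ R, y * z * y⁻¹ * z⁻¹ ≠ 1 := by
      by_contra hall
      push Not at hall
      refine hnS (mem_scalars_of_commute habs fun y hy => ?_)
      have := mul_inv_eq_one.1 (hall y hy)
      exact (mul_inv_eq_iff_eq_mul.1 this).symm
    obtain ⟨b, hb⟩ := (mem_scalars_iff _).1 (((hmemA z).1 hzA).2 y hy)
    have hb1 : (b : F) - 1 ≠ 0 := fun e => hyz (Units.ext (by rw [hb, sub_eq_zero.1 e, one_smul]; rfl))
    have e4 : (y : Mat) * ((z : Mat) - 1) * ((y⁻¹ : GL (Fin m ⊕ Fin m) F) : Mat) = (b : F) • (z : Mat) - 1 := by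
      rw [mul_sub, sub_mul, mul_one, ← Units.val_mul, ← Units.val_mul, ← Units.val_mul, mul_inv_cancel,
        Units.val_one, show y * z * y⁻¹ = y * z * y⁻¹ * z⁻¹ * z by simp, Units.val_mul, hb, smul_mul_assoc,
        one_mul]
    have hr2 : ((b : F) • (z : Mat) - 1).rank ≤ 2 := by
      rw [← e4]
      exact (Matrix.rank_mul_le_left _ _).trans ((Matrix.rank_mul_le_right _ _).trans hrk)
    have key : ((b : F) - 1) • (1 : Mat) =
        ((b : F) • (z : Mat) - 1) + (-(b : F) • (1 : Mat)) * ((z : Mat) - 1) := by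
      rw [smul_mul_assoc, one_mul, smul_sub, neg_smul, neg_smul, sub_smul, one_smul]
      abel
    have hr3 := congrArg Matrix.rank key
    rw [rank_smul_one hb1] at hr3
    have h5 := rank_add_le ((b : F) • (z : Mat) - 1) ((-(b : F) • (1 : Mat)) * ((z : Mat) - 1))
    rw [← hr3] at h5
    have h6 := (Matrix.rank_mul_le_right (-(b : F) • (1 : Mat)) ((z : Mat) - 1)).trans hrk
    simp only [Fintype.card_sum, Fintype.card_fin] at h5
    refine ⟨by omega, b, sub_ne_zero.1 hb1, ?_⟩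
    have h7 := LinearMap.finrank_range_add_finrank_ker (((b : F) • (z : Mat)) - 1).mulVecLin
    change Matrix.rank _ + _ = _ at h7
    simp at h7
    omega
  obtain ⟨x, hxA, hxs⟩ := SetLike.not_le_iff_exists.1 hAns
  obtain ⟨v, hv⟩ : ∃ v : V, spTrans v 1 * x * (spTrans v 1)⁻¹ * x⁻¹ ≠ 1 := by
    by_contra hall
    push Not at hall
    obtain ⟨c, hc⟩ := scalar_of_commute_sp (x := (x : Mat)) (by omega) fun v => by
      have e1 := hall v
      rw [mul_inv_eq_one, mul_inv_eq_iff_eq_mul] at e1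
      rw [← Units.val_mul, ← Units.val_mul, e1]
    exact hxs (mem_scalars_of_smul hc)
  set t := spTrans v (1 : F)
  set z := t * x * t⁻¹ * x⁻¹ with hzdef
  have hrk : ((z : Mat) - 1).rank ≤ 2 := rank_trans_conj_le v x
  obtain ⟨hm2, b, hb1, hE⟩ := hz z (hzA x hxA v) hrk hv
  obtain ⟨h20, hsim⟩ := h4 hm2
  -- `z` is an isometry
  have hziso : ∀ u w : V, sympForm m F ((z : Mat) *ᵥ u) ((z : Mat) *ᵥ w) = sympForm m F u w := by
    obtain ⟨cx, hcx⟩ := hsim ((hmemA x).1 hxA).1
    have ht : ∀ u w : V, sympForm m F ((t : Mat) *ᵥ u) ((t : Mat) *ᵥ w) = sympForm m F u w := spTrans_mem v 1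
    have hti : ∀ u w : V, sympForm m F (((t⁻¹ : GL (Fin m ⊕ Fin m) F) : Mat) *ᵥ u)
        (((t⁻¹ : GL (Fin m ⊕ Fin m) F) : Mat) *ᵥ w) = sympForm m F u w :=
      (spGL m F).inv_mem (spTrans_mem v 1)
    intro u w
    simp only [hzdef, Units.val_mul, ← Matrix.mulVec_mulVec]
    rw [ht, hcx, hti, ← hcx, H98.gl_mulVec_inv, H98.gl_mulVec_inv]
  set E := LinearMap.ker (((b • (z : Mat)) - 1).mulVecLin)
  have hEz : ∀ e ∈ E, b • ((z : Mat) *ᵥ e) = e := fun e he => by
    have := LinearMap.mem_ker.1 he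
    rwa [Matrix.mulVecLin_apply, Matrix.sub_mulVec, Matrix.smul_mulVec, Matrix.one_mulVec, sub_eq_zero] at this
  have hb0 : b ≠ 0 := fun e => by
    obtain ⟨⟨e', he'⟩, he0⟩ := Module.finrank_pos_iff_exists_ne_zero.1 (show 0 < Module.finrank F E by omega)
    refine he0 (Subtype.ext ?_)
    have := hEz e' he'
    rw [e, zero_smul] at this
    exact this.symm
  set P := LinearMap.ker (((z : Mat) - 1).mulVecLin)
  have hPz : ∀ e ∈ P, (z : Mat) *ᵥ e = e := fun e he => by
    have := LinearMap.mem_ker.1 he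
    rwa [Matrix.mulVecLin_apply, Matrix.sub_mulVec, Matrix.one_mulVec, sub_eq_zero] at this
  have horth : ∀ e ∈ E, ∀ p ∈ P, sympForm m F e p = 0 := by
    intro e he p hp
    have h1 := hziso e p
    rw [hPz p hp] at h1
    have h2 : sympForm m F (b • ((z : Mat) *ᵥ e)) p = b * sympForm m F ((z : Mat) *ᵥ e) p := by
      rw [← H2.sympBilin_apply, ← H2.sympBilin_apply, map_smul, LinearMap.smul_apply, smul_eq_mul]
    rw [hEz e he, h1] at h2
    by_contra hne
    exact hb1 (mul_right_cancel₀ hne (by rw [one_mul]; exact h2.symm))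
  have hP2 : 2 ≤ Module.finrank F P := by
    have h7 := LinearMap.finrank_range_add_finrank_ker ((z : Mat) - 1).mulVecLin
    change Matrix.rank _ + _ = _ at h7
    simp at h7
    show 2 ≤ Module.finrank F (LinearMap.ker ((z : Mat) - 1).mulVecLin)
    omega
  obtain ⟨⟨e, he⟩, he0⟩ := Module.finrank_pos_iff_exists_ne_zero.1 (show 0 < Module.finrank F E by omega)
  obtain ⟨⟨p, hp⟩, hp0⟩ := Module.finrank_pos_iff_exists_ne_zero.1 (show 0 < Module.finrank F P by omega)
  have he0' : e ≠ 0 := fun h => he0 (Subtype.ext h)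
  have hp0' : p ≠ 0 := fun h => hp0 (Subtype.ext h)
  have hze : (z : Mat) *ᵥ e = b⁻¹ • e := by
    conv_rhs => rw [← hEz e he, smul_smul, inv_mul_cancel₀ hb0, one_smul]
  have hbi : b⁻¹ ≠ 1 := fun h => hb1 (inv_eq_one.1 h)
  set w := e + p
  have hzw : (z : Mat) *ᵥ w = b⁻¹ • e + p := by rw [Matrix.mulVec_add, hze, hPz p hp]
  have hnline : ∀ c : F, (z : Mat) *ᵥ w ≠ c • w := by
    intro c hc
    rw [hzw, smul_add] at hc
    have h1 : (b⁻¹ - c) • e = (c - 1) • p := by
      rw [sub_smul, sub_smul, one_smul, eq_comm, sub_eq_sub_iff_add_eq_add, eq_comm, hc]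
      abel
    have hmem : (b⁻¹ - c) • e ∈ P := h1 ▸ P.smul_mem _ hp
    by_cases hbc : b⁻¹ - c = 0
    · rw [hbc, zero_smul] at h1
      rcases smul_eq_zero.1 h1.symm with h | h
      · exact hbi (by linear_combination hbc + h)
      · exact hp0' h
    · have := (P.smul_mem (b⁻¹ - c)⁻¹ hmem)
      rw [smul_smul, inv_mul_cancel₀ hbc, one_smul] at this
      have h2 := hPz e this
      rw [hze] at h2
      exact hbi (smul_left_injective F he0' (by simpa using h2))
  have hfw : sympForm m F w ((z : Mat) *ᵥ w) = 0 := by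
    rw [hzw, ← H2.sympBilin_apply]
    simp only [w, map_add, map_smul, LinearMap.add_apply, H2.sympBilin_apply, H2.sympForm_self, smul_eq_mul,
      horth e he p hp, H2.sympForm_swap e p, neg_zero, mul_zero, add_zero]
  -- the commutator of `z` with the transvection at `w` has a degenerate eigenspace
  set t' := spTrans w (1 : F)
  set z' := t' * z * t'⁻¹ * z⁻¹ with hz'def
  have hz'1 : z' ≠ 1 := by
    intro e1
    rw [hz'def, mul_inv_eq_one, mul_inv_eq_iff_eq_mul] at e1
    obtain ⟨u, hu⟩ : ∃ u, H2.sympBilin m F u w ≠ 0 := by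
      by_contra hc
      push Not at hc
      exact hnline 0 (by rw [(H2.sympBilin_nondegenerate m F).2 w hc, Matrix.mulVec_zero, smul_zero])
    have e2 := congrArg (fun g : GL (Fin m ⊕ Fin m) F => (g : Mat) *ᵥ u) e1
    simp only [t', Units.val_mul, ← Matrix.mulVec_mulVec, spTrans_mulVec, one_mul, Matrix.mulVec_add,
      Matrix.mulVec_smul] at e2
    have e3 := add_left_cancel e2
    refine hnline (H2.sympBilin m F ((z : Mat) *ᵥ u) w / H2.sympBilin m F u w) ?_
    rw [div_eq_inv_mul, mul_smul, e3, smul_smul, inv_mul_cancel₀ hu, one_smul]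
  have hz'A : z' ∈ A := hzA z (hzA x hxA v) w
  obtain ⟨-, b', hb'1, hE'⟩ := hz z' hz'A (rank_trans_conj_le w z) hz'1
  have hz'iso : ∀ u u' : V, sympForm m F ((z' : Mat) *ᵥ u) ((z' : Mat) *ᵥ u') = sympForm m F u u' :=
    (spGL m F).mul_mem ((spGL m F).mul_mem ((spGL m F).mul_mem (spTrans_mem w 1) hziso)
      ((spGL m F).inv_mem (spTrans_mem w 1))) ((spGL m F).inv_mem hziso)
  set E' := LinearMap.ker (((b' • (z' : Mat)) - 1).mulVecLin)
  set W := Submodule.span F ({w, (z : Mat) *ᵥ w} : Set V)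
  have hE'W : E' ≤ W := by
    intro u hu
    have h1 : b' • ((z' : Mat) *ᵥ u) = u := by
      have := LinearMap.mem_ker.1 hu
      rwa [Matrix.mulVecLin_apply, Matrix.sub_mulVec, Matrix.smul_mulVec, Matrix.one_mulVec,
        sub_eq_zero] at this
    have h2 : b' • ((z' : Mat) *ᵥ u - u) = (1 - b') • u := by rw [smul_sub, h1, sub_smul, one_smul]
    have h3 : (1 - b') • u ∈ W := h2 ▸ W.smul_mem _ (trans_conj_sub_mem w z u)
    have := W.smul_mem (1 - b')⁻¹ h3
    rwa [smul_smul, inv_mul_cancel₀ (sub_ne_zero.2 (Ne.symm hb'1)), one_smul] at this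
  have hEW : E' = W := by
    refine Submodule.eq_of_le_of_finrank_le hE'W (le_trans ((finrank_span_le_card _).trans ?_) hE')
    simp only [Set.toFinset_insert, Set.toFinset_singleton]
    exact Finset.card_le_two
  set P' := LinearMap.ker (((z' : Mat) - 1).mulVecLin)
  have hwE : w ∈ E' := hEW ▸ Submodule.subset_span (by simp)
  have hw0 : w ≠ 0 := fun h => hnline 0 (by rw [h, Matrix.mulVec_zero, smul_zero])
  have hwz : ∀ u : V, sympForm m F w u = 0 := by
    have hwE' : ∀ u ∈ E', sympForm m F w u = 0 := by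
      intro u hu
      rw [hEW, Submodule.mem_span_pair] at hu
      obtain ⟨α, β', rfl⟩ := hu
      rw [← H2.sympBilin_apply, map_add, map_smul, map_smul]
      simp only [H2.sympBilin_apply, hfw, H2.sympForm_self, smul_zero, add_zero]
    have hwP : ∀ u ∈ P', sympForm m F w u = 0 := by
      intro u hu
      have hu1 : (z' : Mat) *ᵥ u = u := by
        have := LinearMap.mem_ker.1 hu
        rwa [Matrix.mulVecLin_apply, Matrix.sub_mulVec, Matrix.one_mulVec, sub_eq_zero] at this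
      have h1 := hz'iso w u
      rw [hu1] at h1
      have h1' : b' • ((z' : Mat) *ᵥ w) = w := by
        have := LinearMap.mem_ker.1 hwE
        rwa [Matrix.mulVecLin_apply, Matrix.sub_mulVec, Matrix.smul_mulVec, Matrix.one_mulVec,
          sub_eq_zero] at this
      have h2 : sympForm m F (b' • ((z' : Mat) *ᵥ w)) u = b' * sympForm m F ((z' : Mat) *ᵥ w) u := by
        rw [← H2.sympBilin_apply, ← H2.sympBilin_apply, map_smul, LinearMap.smul_apply, smul_eq_mul]
      rw [h1', h1] at h2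
      by_contra hne
      exact hb'1 (mul_right_cancel₀ hne (by rw [one_mul]; exact h2.symm))
    have htop : E' ⊔ P' = ⊤ := by
      refine Submodule.eq_top_of_finrank_eq ?_
      have h5 := Submodule.finrank_sup_add_finrank_inf_eq E' P'
      have h6 : E' ⊓ P' = ⊥ := by
        rw [Submodule.eq_bot_iff]
        rintro u ⟨hu1, hu2⟩
        have e1 := LinearMap.mem_ker.1 hu1
        have e2 := LinearMap.mem_ker.1 hu2
        rw [Matrix.mulVecLin_apply, Matrix.sub_mulVec, Matrix.one_mulVec, sub_eq_zero] at e1 e2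
        rw [Matrix.smul_mulVec, e2] at e1
        exact (smul_eq_zero.1 (show (b' - 1) • u = 0 by rw [sub_smul, one_smul, e1, sub_self])).resolve_left
          (sub_ne_zero.2 hb'1)
      rw [h6, finrank_bot] at h5
      have h7 := LinearMap.finrank_range_add_finrank_ker ((z' : Mat) - 1).mulVecLin
      change Matrix.rank _ + Module.finrank F P' = _ at h7
      have h8 : ((z' : Mat) - 1).rank ≤ 2 := rank_trans_conj_le w z
      have h9 := Submodule.finrank_le (E' ⊔ P')
      have h10 : Module.finrank F V = 4 := by simp [hm2]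
      omega
    intro u
    obtain ⟨u1, hu1, u2, hu2, rfl⟩ := Submodule.mem_sup.1 (show u ∈ E' ⊔ P' from htop ▸ Submodule.mem_top)
    rw [← H2.sympBilin_apply, map_add, H2.sympBilin_apply, H2.sympBilin_apply, hwE' u1 hu1, hwP u2 hu2,
      add_zero]
  exact hw0 ((H2.sympBilin_nondegenerate m F).1 w fun u => by rw [H2.sympBilin_apply]; exact hwz u)

/-- The symplectic group stabilises no tensor power decomposition. -/
theorem sp_not_le_wreath [Finite F] {k t : ℕ} (hk : 2 ≤ k) (ht : 2 ≤ t) (e : (Fin m ⊕ Fin m) ≃ (Fin t → Fin k))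
    (P : GL (Fin m ⊕ Fin m) F) : ¬ sG ≤ tensorWreathSubgroup k t e P := by
  intro h
  classical
  have : Fintype F := Fintype.ofFinite F
  let c0 : Fin t → Fin k := fun _ => ⟨0, by omega⟩
  let c1 : Fin t → Fin k := fun _ => ⟨1, by omega⟩
  let d : Fin t → Fin k := Function.update c0 ⟨0, by omega⟩ ⟨1, by omega⟩
  let j1 : Fin t := ⟨1, by omega⟩
  have hd0 : d ≠ c0 := fun e0 => by
    have := congrFun e0 ⟨0, by omega⟩
    simp [d, c0] at this
  have hd1 : d ≠ c1 := fun e0 => by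
    have := congrFun e0 j1
    simp [d, c0, c1, j1] at this
  let w : (Fin t → Fin k) → F := fun y => if y = c0 ∨ y = c1 then 1 else 0
  have hinj : ∀ a b : (Fin t → Fin k) → F, (P : Mat) *ᵥ (a ∘ e) = (P : Mat) *ᵥ (b ∘ e) → a = b := by
    intro a b hab
    funext y
    simpa using congrFun (gl_mulVec_injective P hab) (e.symm y)
  have hv0 : (P : Mat) *ᵥ ((pureVec fun _ => (Pi.single ⟨0, by omega⟩ (1 : F))) ∘ e) ≠ 0 := fun e0 => by
    have h0 : (pureVec fun _ : Fin t => (Pi.single (⟨0, by omega⟩ : Fin k) (1 : F))) = 0 :=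
      hinj _ _ (e0.trans (by rw [Pi.zero_comp, Matrix.mulVec_zero]))
    have := congrFun h0 c0
    simp [pureVec, c0] at this
  have hw0 : (P : Mat) *ᵥ (w ∘ e) ≠ 0 := fun e0 => by
    have h0 : w = 0 := hinj _ _ (e0.trans (by rw [Pi.zero_comp, Matrix.mulVec_zero]))
    have := congrFun h0 c0
    simp [w] at this
  obtain ⟨u, hu⟩ := eq_all_of_invariant h (fun v => ∃ u, v = (P : Mat) *ᵥ ((pureVec u) ∘ e))
    (fun g hg v ⟨u, hv⟩ => by
      obtain ⟨_, ⟨g', hg', rfl⟩, rfl⟩ := hg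
      obtain ⟨u', hu'⟩ := wreath_pure hg' u
      refine ⟨u', ?_⟩
      subst hv
      simp only [MulEquiv.coe_toMonoidHom, MulAut.conj_apply, Units.val_mul, ← Matrix.mulVec_mulVec,
        H98.gl_inv_mulVec]
      congr 1
      funext x
      simp only [Function.comp_apply, ← hu', Matrix.mulVec, dotProduct]
      exact Fintype.sum_equiv e _ _ fun y => by simp [glReindex]) hv0 ⟨_, rfl⟩ hw0
  have hp := hinj _ _ hu
  have h0 : (1 : F) = ∏ i, u i (c0 i) := by have := congrFun hp c0; simpa [w, pureVec] using this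
  have h1 : (1 : F) = ∏ i, u i (c1 i) := by have := congrFun hp c1; simpa [w, pureVec] using this
  have hz : (0 : F) = ∏ i, u i (d i) := by
    have := congrFun hp d
    simpa [w, pureVec, hd0, hd1] using this
  obtain ⟨i, -, hi⟩ := Finset.prod_eq_zero_iff.1 hz.symm
  have hdi : d i = c0 i ∨ d i = c1 i := by
    by_cases hi0 : i = ⟨0, by omega⟩
    · right; simp [d, hi0, c1]
    · left; simp [d, hi0]
  rcases hdi with e0 | e0 <;> rw [e0] at hi
  · exact one_ne_zero (h0.trans (Finset.prod_eq_zero (Finset.mem_univ i) hi))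
  · exact one_ne_zero (h1.trans (Finset.prod_eq_zero (Finset.mem_univ i) hi))

end Cfsg.Agent.H1.SpList
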