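import Cfsg.Agent.H1.SpList.Refine

/-!
Maximal subgroups of the symplectic groups: each equals the member containing it, with the refinements.
-/

set_option autoImplicit false

open scoped MatrixGroups Matrix

namespace Cfsg.Agent.H1.SpList

open Cfsg.Geo H99.Asch

variable {F : Type*} [Field F] [Fintype F] {m : ℕ}

local notation "V" => (Fin m ⊕ Fin m → F)
local notation "Mat" => Matrix (Fin m ⊕ Fin m) (Fin m ⊕ Fin m) F
local notation "sG" => spGL m F

omit [Fintype F] in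
theorem eq_inf_of_le {H S : Subgroup (GL (Fin m ⊕ Fin m) F)} (hH : IsMaximalIn sG H) (hle : H ≤ S)
    (hS : ¬ sG ≤ S) : H = S ⊓ sG := by
  rcases hH.2 (S ⊓ sG) (le_inf hle hH.1.le) inf_le_right with h | h
  · exact h.symm
  · exact absurd (inf_eq_right.1 h) hS

/-- The alternatives for a maximal subgroup. -/
inductive SpMaxCase (m : ℕ) (H : Subgroup (GL (Fin m ⊕ Fin m) F)) : Prop
  | singular (W : Submodule F (Fin m ⊕ Fin m → F)) (hW : W ≠ ⊥) (hts : IsTotallySingularFor (sympForm m F) W)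
      (heq : H = subspaceStabilizer W ⊓ spGL m F)
  | nondeg (W : Submodule F (Fin m ⊕ Fin m → F)) (hW : W ≠ ⊥) (hnd : IsNondegenerateOn (sympForm m F) W)
      (hdim : Module.finrank F W < m) (h2 : 2 ≤ Module.finrank F W) (heq : H = subspaceStabilizer W ⊓ spGL m F)
  | decomp (t k : ℕ) (D : Fin t → Submodule F (Fin m ⊕ Fin m → F))
      (hD : IsNondegenerateMDecomposition (sympForm m F) k D) (ht : 2 ≤ t) (hk : 2 ≤ k) (hev : Even k)
      (htk : t * k = m + m) (hq : k = 2 → 3 ≤ Fintype.card F) (heq : H = decompositionStabilizer D ⊓ spGL m F)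
  | halves (D : Fin 2 → Submodule F (Fin m ⊕ Fin m → F)) (hq : Odd (Fintype.card F)) (hD : IsMDecomposition m D)
      (hts : ∀ i, IsTotallySingularFor (sympForm m F) (D i)) (heq : H = decompositionStabilizer D ⊓ spGL m F)
  | fieldSelf (r : ℕ) (K : Subalgebra F (Matrix (Fin m ⊕ Fin m) (Fin m ⊕ Fin m) F)) (hr : r.Prime) (hrm : r ∣ m)
      (hK : IsFieldSubalgebra r K) (hself : IsSelfAdjointFor (sympForm m F) K)
      (halt : ∀ k ∈ K, ∀ v, sympForm m F (k *ᵥ v) v = 0) (heq : H = subalgebraNormalizer K ⊓ spGL m F)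
  | fieldUnitary (K : Subalgebra F (Matrix (Fin m ⊕ Fin m) (Fin m ⊕ Fin m) F)) (hq : Odd (Fintype.card F))
      (hK : IsFieldSubalgebra 2 K) (hadj : IsAdjointClosedFor (sympForm m F) K)
      (hnself : ¬ IsSelfAdjointFor (sympForm m F) K) (heq : H = subalgebraNormalizer K ⊓ spGL m F)
  | tensor (n₁ n₂ : ℕ) (e : (Fin m ⊕ Fin m) ≃ Fin n₁ × Fin n₂) (P : GL (Fin m ⊕ Fin m) F)
      (f₁ : (Fin n₁ → F) → (Fin n₁ → F) → F) (f₂ : (Fin n₂ → F) → (Fin n₂ → F) → F)
      (hq : Odd (Fintype.card F)) (h1 : 2 ≤ n₁) (h2 : 3 ≤ n₂) (hev : Even n₁) (hn : n₁ * n₂ = m + m)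
      (h53 : n₂ = 3 → 5 ≤ Fintype.card F) (hf₁ : IsSymplecticForm f₁) (hf₂ : IsSymmetricForm f₂)
      (hform : IsTensorFormStructure id (sympForm m F) f₁ f₂ e P)
      (heq : H = tensorProductSubgroup n₁ n₂ e P ⊓ spGL m F)
  | subfield (F₀ : Subfield F) (r : ℕ) (P : GL (Fin m ⊕ Fin m) F) (ζ : F) (hr : r.Prime)
      (hc : Fintype.card F = Nat.card F₀ ^ r) (hζ : ζ ≠ 0) (hf : IsFormRationalStructure (sympForm m F) F₀ ζ P)
      (heq : H = subfieldSubgroup F₀ P ⊓ spGL m F)
  | typeTwo (R : Subgroup (GL (Fin m ⊕ Fin m) F)) (p k : ℕ) (hR : IsSymplecticTypeGroup 2 R)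
      (habs : ActsAbsolutelyIrreducibly (matrixSet R)) (hsim : R ≤ similarityGroup (sympForm m F)) (hp : p.Prime)
      (hodd : Odd p) (hc : Fintype.card F = p) (hn : m + m = 2 ^ k) (hcard : Nat.card R = 2 ^ (1 + 2 * k))
      (hz : Nat.card (Subgroup.center R) = 2) (hminus : IsOfMinusType k R)
      (heq : H = subgroupNormalizer R ⊓ spGL m F)
  | orthogonal (Q : (Fin m ⊕ Fin m → F) → F) (hq : ¬ Odd (Fintype.card F)) (hQ : IsNondegenerateQuadraticForm Q)
      (hpol : ∀ u v, QuadraticMap.polar Q u v = sympForm m F u v) (heq : H = quadSimilarityGroup Q ⊓ spGL m F)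
  | tensorPower (k t : ℕ) (e : (Fin m ⊕ Fin m) ≃ (Fin t → Fin k)) (P : GL (Fin m ⊕ Fin m) F)
      (f₁ : (Fin k → F) → (Fin k → F) → F) (hq : Odd (Fintype.card F)) (ht3 : 3 ≤ t)
      (hk : 2 ≤ k) (hn : k ^ t = m + m) (h5 : k = 2 → 5 ≤ Fintype.card F) (hf₁ : IsSymplecticForm f₁)
      (hform : IsTensorPowerFormStructure id (sympForm m F) f₁ e P)
      (heq : H = tensorWreathSubgroup k t e P ⊓ spGL m F)
  | residual (hres : InSymplecticResidualClass H)

theorem odd_five {q : ℕ} (hq : Odd q) (h2 : 2 ≤ q) (h3 : q ≠ 3) : 5 ≤ q := by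
  obtain ⟨j, rfl⟩ := hq
  omega

/-- Every maximal subgroup of the symplectic group. -/
theorem sp_maximal_cases (hm : 2 ≤ m) {H : Subgroup (GL (Fin m ⊕ Fin m) F)} (hH : IsMaximalIn sG H) :
    SpMaxCase m H := by
  classical
  have hm1 : 1 ≤ m := by omega
  have : Nonempty (Fin m ⊕ Fin m) := ⟨Sum.inl ⟨0, by omega⟩⟩
  have hdimV : Module.finrank F V = m + m := by simp
  have h20 : ¬ Odd (Fintype.card F) → (2 : F) = 0 := fun hq => (card_parity (F := F)).resolve_left hq
  have hcard2 : 2 ≤ Fintype.card F := Fintype.one_lt_card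
  have quadCase : ∀ Q : V → F, ¬ Odd (Fintype.card F) → IsNondegenerateQuadraticForm Q →
      (∀ u v, QuadraticMap.polar Q u v = sympForm m F u v) → H ≤ quadSimilarityGroup Q → SpMaxCase m H :=
    fun Q hq hQ hpol hle => .orthogonal Q hq hQ hpol (eq_inf_of_le hH hle (sp_not_le_quad hm hQ hpol (h20 hq)))
  rcases symplectic_aschbacher hm hH.1.le with ⟨W, hW, hts, hle⟩ | ⟨W, hW, hnd, hdim, hle⟩ |
    ⟨t, k, D, hD, htk, hle⟩ | ⟨D, hq, hD, hts, -, hle⟩ | ⟨r, K, hr, hrm, hK, hself, halt, -, hle⟩ |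
    ⟨K, hq, hK, hadj, hnself, -, hle⟩ | ⟨n₁, n₂, e, P, f₁, f₂, hq, h1, h2, hev, hf₁, hf₂, hform, -, hle⟩ |
    ⟨F₀, r, P, ζ, hr, hc, hζ, hf, -, hle⟩ |
    ⟨R, p, k, hR, habs, hsim, hp, hodd, hc, hn, hcard, hz, hminus, -, hle⟩ |
    ⟨Q, hq, hQ, hpol, hle⟩ | ⟨k, t, e, P, f₁, hq, -, ht3, hk, hex, hf₁, hform, -, hle⟩ | ⟨hres, -⟩
  · have htop : W ≠ ⊤ := by
      intro h
      have h0 : sympForm m F (Pi.single (Sum.inl ⟨0, by omega⟩) 1) (Pi.single (Sum.inr ⟨0, by omega⟩) 1) = 0 :=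
        hts _ (by rw [h]; trivial) _ (by rw [h]; trivial)
      simp [H2.sympForm_single_inl] at h0
    exact .singular W hW hts (eq_inf_of_le hH hle (sp_not_le_subspace hW htop))
  · have htop : W ≠ ⊤ := by
      intro h
      rw [h, finrank_top] at hdim
      omega
    have h2W : 2 ≤ Module.finrank F W := by
      obtain ⟨j, hj⟩ := even_finrank_nondeg hnd
      have := Submodule.one_le_finrank_iff.2 hW
      omega
    exact .nondeg W hW hnd hdim h2W (eq_inf_of_le hH hle (sp_not_le_subspace hW htop))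
  · have ht := hD.decomp.two_le
    have hev : Even k := by
      rw [← hD.decomp.finrank_eq ⟨0, by omega⟩]
      exact even_finrank_nondeg (hD.nondegenerate _)
    have hk : 2 ≤ k := by
      obtain ⟨j, hj⟩ := hev
      have := hD.decomp.pos
      omega
    by_cases hk2 : k = 2 ∧ Fintype.card F = 2
    · obtain ⟨rfl, hq2⟩ := hk2
      obtain ⟨Q, hQ, hpol, hQle⟩ := decomposition_le_quad hq2 hD
      exact quadCase Q (by rw [hq2]; decide) hQ hpol (hle.trans hQle)
    · exact .decomp t k D hD ht hk hev htk (fun h => by omega)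
        (eq_inf_of_le hH hle (sp_not_le_decomposition hD.decomp))
  · exact .halves D hq hD hts (eq_inf_of_le hH hle (sp_not_le_decomposition hD))
  · exact .fieldSelf r K hr hrm hK hself halt (eq_inf_of_le hH hle (sp_not_le_field hm hr hK))
  · exact .fieldUnitary K hq hK hadj hnself (eq_inf_of_le hH hle (sp_not_le_field hm Nat.prime_two hK))
  · have hn : n₁ * n₂ = m + m := by
      have := Fintype.card_congr e
      simp at this
      omega
    by_cases h33 : n₂ = 3 ∧ Fintype.card F = 3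
    · obtain ⟨rfl, hq3⟩ := h33
      obtain ⟨D, hD, hDle⟩ := tensor_three_le_decomposition hq3 h1 e P hf₁ hf₂ hform
      exact .decomp 3 n₁ D hD (by omega) h1 hev (by omega) (fun _ => by omega)
        (eq_inf_of_le hH ((le_inf hle hH.1.le).trans hDle) (sp_not_le_decomposition hD.decomp))
    · exact .tensor n₁ n₂ e P f₁ f₂ hq h1 h2 hev hn (fun h => odd_five hq hcard2 fun h3 => h33 ⟨h, h3⟩) hf₁ hf₂
        hform (eq_inf_of_le hH hle (sp_not_le_tensor h1 (by omega) e P))
  · exact .subfield F₀ r P ζ hr hc hζ hf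
      (eq_inf_of_le hH hle (sp_not_le_subfield hm1 hr (by rw [Nat.card_eq_fintype_card, hc]) P))
  · refine .typeTwo R p k hR habs hsim hp hodd hc hn hcard hz hminus
      (eq_inf_of_le hH hle (sp_not_le_symplecticType hm hR.prime hR.pGroup habs fun _ => ⟨?_, hsim⟩))
    exact two_ne_zero_of_card_odd (hc ▸ hodd)
  · exact quadCase Q hq hQ hpol hle
  · have hn : k ^ t = m + m := by
      have := Fintype.card_congr e
      simp at this
      omega
    exact .tensorPower k t e P f₁ hq ht3 hk hn (fun h => odd_five hq hcard2 fun h3 => hex ⟨h3, h⟩) hf₁ hform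
      (eq_inf_of_le hH hle (sp_not_le_wreath hk (by omega) e P))
  · exact .residual hres

end Cfsg.Agent.H1.SpList
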