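import Cfsg.Agent.H1.SpList.Cases

/-!
Over three elements the stabiliser of a pair of complementary Lagrangian planes normalises a self-adjoint field, and
the normaliser of a unitary field lies in the larger stabiliser of five anticommuting involutions.
-/

set_option autoImplicit false

open scoped MatrixGroups Matrix

namespace Cfsg.Agent.H1.SpList

open Cfsg.Geo H99.Asch

variable {F : Type*} [Field F]

local notation "V₄" => (Fin 2 ⊕ Fin 2 → F)
local notation "M₄" => Matrix (Fin 2 ⊕ Fin 2) (Fin 2 ⊕ Fin 2) F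
local notation "G₄" => GL (Fin 2 ⊕ Fin 2) F
local notation "β" => H2.sympBilin 2 F

theorem no_sqrt_neg_one [Fintype F] (h3 : Fintype.card F = 3) (a : F) : a * a ≠ -1 := by
  obtain ⟨h30, h2, -⟩ := TensorNM.three_facts h3
  intro h
  rcases TensorNM.three_cases h3 a with rfl | rfl | rfl
  · exact one_ne_zero (α := F) (by linear_combination h)
  · exact h2 (by linear_combination h)
  · exact h2 (by linear_combination h)

section Quad

variable {ι : Type} [Fintype ι] [DecidableEq ι]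

/-- The algebra spanned by one and a root of minus one. -/
def quadAlg (J : Matrix ι ι F) (hJ : J * J = -1) : Subalgebra F (Matrix ι ι F) where
  carrier := {x | ∃ a b : F, x = a • 1 + b • J}
  mul_mem' := by
    rintro _ _ ⟨a, b, rfl⟩ ⟨c, d, rfl⟩
    refine ⟨a * c - b * d, a * d + b * c, ?_⟩
    simp only [add_mul, mul_add, smul_mul_smul_comm, hJ, one_mul, mul_one, sub_smul, add_smul, smul_neg]
    abel
  one_mem' := ⟨1, 0, by simp⟩
  add_mem' := by
    rintro _ _ ⟨a, b, rfl⟩ ⟨c, d, rfl⟩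
    exact ⟨a + c, b + d, by simp only [add_smul]; abel⟩
  zero_mem' := ⟨0, 0, by simp⟩
  algebraMap_mem' c := ⟨c, 0, by simp [Algebra.algebraMap_eq_smul_one]⟩

theorem isField_quadAlg [Fintype F] [Nonempty ι] (h3 : Fintype.card F = 3) (J : Matrix ι ι F) (hJ : J * J = -1) :
    IsFieldSubalgebra 2 (quadAlg J hJ) := by
  have hind : ∀ a b : F, a • (1 : Matrix ι ι F) + b • J = 0 → a = 0 ∧ b = 0 := by
    intro a b h
    have h1 : (a * a + b * b) • (1 : Matrix ι ι F) = 0 := by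
      have := congrArg (fun x => (a • (1 : Matrix ι ι F) - b • J) * x) h
      simp only [mul_zero, sub_mul, mul_add, smul_mul_smul_comm, hJ, one_mul, mul_one, smul_neg] at this
      rw [← this, add_smul, mul_comm b a]; abel
    have h2 : a * a + b * b = 0 := (smul_eq_zero.1 h1).resolve_right one_ne_zero
    by_cases hb : b = 0
    · subst hb; simpa using h2
    · exact absurd (show (a / b) * (a / b) = -1 by field_simp; linear_combination h2) (no_sqrt_neg_one h3 _)
  refine ⟨?_, ?_, ?_⟩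
  · rintro _ ⟨a, b, rfl⟩ _ ⟨c, d, rfl⟩
    simp only [add_mul, mul_add, smul_mul_smul_comm, one_mul, mul_one, mul_comm a, mul_comm b]
    abel
  · rintro _ ⟨a, b, rfl⟩ hne
    have hn : a * a + b * b ≠ 0 := by
      intro h
      by_cases hb : b = 0
      · subst hb; simp at h; exact hne (by simp [h])
      · exact no_sqrt_neg_one h3 (a / b) (by field_simp; linear_combination h)
    refine ⟨(a * a + b * b)⁻¹ • (a • 1 - b • J), ⟨(a * a + b * b)⁻¹ * a, -((a * a + b * b)⁻¹ * b), ?_⟩, ?_⟩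
    · rw [smul_sub, smul_smul, smul_smul, neg_smul, sub_eq_add_neg]
    · rw [mul_smul_comm]
      simp only [add_mul, mul_sub, smul_mul_smul_comm, hJ, one_mul, mul_one, smul_neg]
      rw [show (a * a) • (1 : Matrix ι ι F) + (b * a) • J - ((a * b) • J + -((b * b) • 1)) =
        (a * a + b * b) • 1 by rw [add_smul, mul_comm b a]; abel, smul_smul, inv_mul_cancel₀ hn, one_smul]
  · let f : (Fin 2 → F) →ₗ[F] Matrix ι ι F :=
      { toFun := fun c => c 0 • 1 + c 1 • J
        map_add' := fun c d => by simp only [Pi.add_apply, add_smul]; abel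
        map_smul' := fun r c => by simp [smul_smul, smul_add] }
    have hf : Function.Injective f := (injective_iff_map_eq_zero f).2 fun c hc => by
      obtain ⟨h0, h1⟩ := hind _ _ hc
      funext i; fin_cases i <;> assumption
    have hr : LinearMap.range f = Subalgebra.toSubmodule (quadAlg J hJ) := by
      ext x
      exact ⟨fun ⟨c, hc⟩ => ⟨c 0, c 1, hc.symm⟩, fun ⟨a, b, hab⟩ => ⟨![a, b], by simp [f, hab]⟩⟩
    change Module.finrank F (Subalgebra.toSubmodule (quadAlg J hJ)) = 2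
    rw [← hr, LinearMap.finrank_range_of_inj hf]
    simp

theorem mem_normalizer_quadAlg (J : Matrix ι ι F) (hJ : J * J = -1) {g : GL ι F} {c : F} (hc : c ≠ 0)
    (h : (g : Matrix ι ι F) * J = c • (J * (g : Matrix ι ι F))) : g ∈ subalgebraNormalizer (quadAlg J hJ) := by
  set gi : Matrix ι ι F := ((g⁻¹ : GL ι F) : Matrix ι ι F)
  have h1 : (g : Matrix ι ι F) * J * gi = c • J := by
    rw [h, smul_mul_assoc, mul_assoc, Units.mul_inv, mul_one]
  have h2 : gi * J * (g : Matrix ι ι F) = c⁻¹ • J := by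
    have : J * (g : Matrix ι ι F) = c⁻¹ • ((g : Matrix ι ι F) * J) := by rw [h, smul_smul, inv_mul_cancel₀ hc, one_smul]
    rw [mul_assoc, this, mul_smul_comm, ← mul_assoc, Units.inv_mul, one_mul]
  intro k
  constructor
  · rintro ⟨a, b, rfl⟩
    refine ⟨a, b * c, ?_⟩
    rw [mul_add, add_mul, mul_smul_comm, mul_smul_comm, smul_mul_assoc, smul_mul_assoc, mul_one, Units.mul_inv, h1,
      smul_smul]
  · rintro ⟨a, b, hab⟩
    refine ⟨a, b * c⁻¹, ?_⟩
    have := congrArg (fun x => gi * x * (g : Matrix ι ι F)) hab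
    simp only [mul_add, add_mul, mul_smul_comm, smul_mul_assoc, mul_one, h2, smul_smul] at this
    have e : gi * ((g : Matrix ι ι F) * k * gi) * (g : Matrix ι ι F) = k := by simp [gi, ← mul_assoc]
    rw [e, show gi * (g : Matrix ι ι F) = 1 from Units.inv_mul g] at this
    exact this

end Quad

/-- The linear map given on a basis, as a matrix. -/
theorem exists_matrix_of_basis {κ : Type} [Fintype κ] (bV : Module.Basis κ F V₄) (img : κ → V₄) :
    ∃ J : M₄, ∀ i, J *ᵥ bV i = img i :=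
  ⟨LinearMap.toMatrix' (bV.constr F img), fun i => by rw [LinearMap.toMatrix'_mulVec, Module.Basis.constr_basis]⟩

theorem mulVec_ext {κ : Type} (bV : Module.Basis κ F V₄) {X Y : M₄} (h : ∀ i, X *ᵥ bV i = Y *ᵥ bV i) : X = Y :=
  Matrix.toLin'.injective (bV.ext fun i => by simpa using h i)

theorem selfAdjoint_of_basis {κ : Type} (bV : Module.Basis κ F V₄) {X : M₄}
    (h : ∀ i j, β (X *ᵥ bV i) (bV j) = β (bV i) (X *ᵥ bV j)) (u v : V₄) : β (X *ᵥ u) v = β u (X *ᵥ v) := by
  have e : (β).compl₁₂ (Matrix.mulVecLin X) LinearMap.id = (β).compl₁₂ LinearMap.id (Matrix.mulVecLin X) :=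
    LinearMap.ext_basis bV bV fun i j => by simpa [-H2.sympBilin_apply] using h i j
  simpa [-H2.sympBilin_apply] using LinearMap.congr_fun₂ e u v

theorem beta_swap' (u v : V₄) : β v u = - β u v := H98.beta_swap u v

theorem alt_of_selfAdjoint (h2 : (2 : F) ≠ 0) {X : M₄} (h : ∀ u v, β (X *ᵥ u) v = β u (X *ᵥ v)) (v : V₄) :
    β (X *ᵥ v) v = 0 := by
  have h1 := h v v
  rw [beta_swap' (X *ᵥ v) v] at h1
  exact (mul_eq_zero.1 (show (2 : F) * β (X *ᵥ v) v = 0 by linear_combination h1)).resolve_left h2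

/-- Over three elements a pair of complementary Lagrangian planes gives a self-adjoint field. -/
theorem halves_le_field [Fintype F] (h3 : Fintype.card F = 3) {D : Fin 2 → Submodule F V₄}
    (hD : IsMDecomposition 2 D) (hts : ∀ i, IsTotallySingularFor (sympForm 2 F) (D i)) :
    ∃ K : Subalgebra F M₄, IsFieldSubalgebra 2 K ∧ IsSelfAdjointFor (sympForm 2 F) K ∧
      (∀ k ∈ K, ∀ v, sympForm 2 F (k *ᵥ v) v = 0) ∧
      decompositionStabilizer D ⊓ spGL 2 F ≤ subalgebraNormalizer K := by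
  classical
  obtain ⟨h30, h2, hsq⟩ := TensorNM.three_facts h3
  have hts' : ∀ i, ∀ u ∈ D i, ∀ v ∈ D i, β u v = 0 := fun i u hu v hv => by
    rw [H2.sympBilin_apply]; exact hts i u hu v hv
  have hsup : D 0 ⊔ D 1 = ⊤ := by
    rw [eq_top_iff, ← hD.iSup_eq_top]
    exact iSup_le fun i => by fin_cases i <;> simp
  have hzero : ∀ i, ∀ u ∈ D i, (∀ w ∈ D (i + 1), β w u = 0) → u = 0 := by
    intro i u hu h
    refine (H2.sympBilin_nondegenerate 2 F).2 u fun x => ?_
    obtain ⟨p, hp, q, hq, rfl⟩ := Submodule.mem_sup.1 (show x ∈ D 0 ⊔ D 1 from hsup ▸ Submodule.mem_top)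
    rw [map_add, LinearMap.add_apply]
    fin_cases i
    · rw [hts' 0 p hp u hu, h q hq, add_zero]
    · rw [hts' 1 q hq u hu, h p hp, add_zero]
  let bW := Module.finBasisOfFinrankEq F (D 0) (hD.finrank_eq 0)
  let w : Fin 2 → V₄ := fun i => (bW i : V₄)
  have hwspan : ∀ u ∈ D 0, ∃ a c : F, u = a • w 0 + c • w 1 := fun u hu => by
    refine ⟨bW.repr ⟨u, hu⟩ 0, bW.repr ⟨u, hu⟩ 1, ?_⟩
    have h := bW.sum_repr ⟨u, hu⟩
    rw [Fin.sum_univ_two] at h
    exact (congrArg Subtype.val h).symm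
  let ψ : D 1 →ₗ[F] (Fin 2 → F) := LinearMap.pi fun i => (β (w i)).comp (D 1).subtype
  have hψ : Function.Injective ψ := by
    refine (injective_iff_map_eq_zero ψ).2 fun u hu => Subtype.ext (hzero 1 u u.2 fun x hx => ?_)
    obtain ⟨a, c, rfl⟩ := hwspan x hx
    have e0 : β (w 0) (u : V₄) = 0 := congrFun hu 0
    have e1 : β (w 1) (u : V₄) = 0 := congrFun hu 1
    rw [map_add, map_smul, map_smul, LinearMap.add_apply, LinearMap.smul_apply, LinearMap.smul_apply, e0, e1]
    simp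
  have hψs : Function.Surjective ψ :=
    (LinearMap.injective_iff_surjective_of_finrank_eq_finrank (by simp [hD.finrank_eq])).1 hψ
  obtain ⟨p0, hp0⟩ := hψs ![1, 0]
  obtain ⟨p1, hp1⟩ := hψs ![0, 1]
  have q00 : β (w 0) (p0 : V₄) = 1 := congrFun hp0 0
  have q10 : β (w 1) (p0 : V₄) = 0 := congrFun hp0 1
  have q01 : β (w 0) (p1 : V₄) = 0 := congrFun hp1 0
  have q11 : β (w 1) (p1 : V₄) = 1 := congrFun hp1 1
  let B : Fin 4 → V₄ := ![w 0, w 1, (p0 : V₄), (p1 : V₄)]
  have s0 : ∀ i j, β (w i) (w j) = 0 := fun i j => hts' 0 _ (bW i).2 _ (bW j).2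
  have s1 : ∀ u v : D 1, β (u : V₄) (v : V₄) = 0 := fun u v => hts' 1 _ u.2 _ v.2
  have r00 : β (p0 : V₄) (w 0) = -1 := by rw [beta_swap' (w 0), q00]
  have r10 : β (p0 : V₄) (w 1) = 0 := by rw [beta_swap' (w 1), q10, neg_zero]
  have r01 : β (p1 : V₄) (w 0) = 0 := by rw [beta_swap' (w 0), q01, neg_zero]
  have r11 : β (p1 : V₄) (w 1) = -1 := by rw [beta_swap' (w 1), q11]
  have li : LinearIndependent F B := Fintype.linearIndependent_iff.2 fun g hg i => by
    have h0 := congrArg (fun x => β x (p0 : V₄)) hg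
    have h1 := congrArg (fun x => β x (p1 : V₄)) hg
    have h2' := congrArg (fun x => β x (w 0)) hg
    have h3' := congrArg (fun x => β x (w 1)) hg
    simp [B, Fin.sum_univ_four, -H2.sympBilin_apply, q00, q10, q01, q11, r00, r10, r01, r11, s0, s1] at h0 h1 h2' h3'
    fin_cases i <;> assumption
  let bV := basisOfLinearIndependentOfCardEqFinrank li (by simp)
  have hbV : ∀ i, bV i = B i := fun i => by simp [bV]
  obtain ⟨J, hJb⟩ := exists_matrix_of_basis bV ![(p1 : V₄), -(p0 : V₄), w 1, -w 0]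
  have j0 : J *ᵥ w 0 = p1 := by simpa [hbV, B] using hJb 0
  have j1 : J *ᵥ w 1 = -(p0 : V₄) := by simpa [hbV, B] using hJb 1
  have j2 : J *ᵥ (p0 : V₄) = w 1 := by simpa [hbV, B] using hJb 2
  have j3 : J *ᵥ (p1 : V₄) = -w 0 := by simpa [hbV, B] using hJb 3
  have hJ : J * J = -1 := mulVec_ext bV fun i => by
    fin_cases i <;> simp [hbV, B, ← Matrix.mulVec_mulVec, Matrix.mulVec_neg, Matrix.neg_mulVec, j0, j1, j2, j3]
  have hsa : ∀ u v, β (J *ᵥ u) v = β u (J *ᵥ v) := selfAdjoint_of_basis bV fun i j => by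
    fin_cases i <;> fin_cases j <;>
      simp [hbV, B, -H2.sympBilin_apply, j0, j1, j2, j3, q00, q10, q01, q11, r00, r10, r01, r11, s0, s1]
  have hJW : ∀ u ∈ D 0, J *ᵥ u ∈ D 1 := fun u hu => by
    obtain ⟨a, c, rfl⟩ := hwspan u hu
    rw [Matrix.mulVec_add, Matrix.mulVec_smul, Matrix.mulVec_smul, j0, j1]
    exact (D 1).add_mem ((D 1).smul_mem _ p1.2) ((D 1).smul_mem _ ((D 1).neg_mem p0.2))
  have hJinj : ∀ u, J *ᵥ (J *ᵥ u) = -u := fun u => by rw [Matrix.mulVec_mulVec, hJ, Matrix.neg_mulVec, Matrix.one_mulVec]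
  have hJW' : ∀ u ∈ D 1, J *ᵥ u ∈ D 0 ∧ ∃ y ∈ D 0, u = J *ᵥ y := by
    intro u hu
    have hspan : ∃ y ∈ D 0, u = J *ᵥ y := by
      let L : D 0 →ₗ[F] D 1 := ((Matrix.mulVecLin J).comp (D 0).subtype).codRestrict (D 1) fun y => hJW y y.2
      have hL : Function.Injective L := fun a b h => Subtype.ext (neg_injective (by
        rw [← hJinj a, ← hJinj b]; exact congrArg (fun x : D 1 => J *ᵥ (x : V₄)) h))
      obtain ⟨y, hy⟩ := (LinearMap.injective_iff_surjective_of_finrank_eq_finrank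
        (by rw [hD.finrank_eq, hD.finrank_eq])).1 hL ⟨u, hu⟩
      exact ⟨y, y.2, (congrArg Subtype.val hy).symm⟩
    obtain ⟨y, hy, rfl⟩ := hspan
    exact ⟨by rw [hJinj]; exact (D 0).neg_mem hy, y, hy, rfl⟩
  refine ⟨quadAlg J hJ, isField_quadAlg h3 J hJ, ?_, ?_, ?_⟩
  · rintro _ ⟨a, b, rfl⟩ u v
    rw [← H2.sympBilin_apply, ← H2.sympBilin_apply]
    simp [-H2.sympBilin_apply, Matrix.add_mulVec, Matrix.smul_mulVec, hsa]
  · rintro _ ⟨a, b, rfl⟩ v
    rw [← H2.sympBilin_apply]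
    simp [-H2.sympBilin_apply, Matrix.add_mulVec, Matrix.smul_mulVec, alt_of_selfAdjoint h2 hsa, H98.beta_self]
  · rintro g ⟨⟨σ, hσ⟩, hgS⟩
    have hiso : ∀ u v, β ((g : M₄) *ᵥ u) ((g : M₄) *ᵥ v) = β u v := H98.mem_spGL.1 hgS
    have hmem : ∀ i, ∀ x ∈ D i, (g : M₄) *ᵥ x ∈ D (σ i) := fun i x hx => by
      rw [← hσ i]; exact ⟨x, hx, by simp⟩
    let ω := fun u v => β ((g : M₄) *ᵥ u) (J *ᵥ ((g : M₄) *ᵥ v))
    set d := ω (w 0) (w 1)
    have hω0 : β (w 0) (J *ᵥ w 1) = -1 := by rw [j1, map_neg, q00]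
    have halt : ∀ u, β u (J *ᵥ u) = 0 := fun u => by
      rw [← hsa, alt_of_selfAdjoint h2 hsa]
    -- the form moved by g is a multiple of the form
    have hωeq : ∀ x ∈ D 0, ∀ y ∈ D 0, ω x y = -d * β x (J *ᵥ y) := by
      intro x hx y hy
      obtain ⟨a, c, rfl⟩ := hwspan x hx
      obtain ⟨a', c', rfl⟩ := hwspan y hy
      have hsw : ω (w 1) (w 0) = -d := by
        simp only [d, ω]
        rw [← hsa, beta_swap' _ (J *ᵥ _)]
      have hsw' : β (w 1) (J *ᵥ w 0) = 1 := by rw [j0, q11]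
      simp only [ω] at hsw ⊢
      simp only [Matrix.mulVec_add, Matrix.mulVec_smul, map_add, map_smul, LinearMap.add_apply,
        LinearMap.smul_apply, smul_eq_mul, halt, hsw, hω0, hsw']
      rw [show β ((g : M₄) *ᵥ w 0) (J *ᵥ ((g : M₄) *ᵥ w 1)) = d from rfl]
      ring
    have hfin : ∀ i : Fin 2, σ i + 1 = σ (i + 1) := fun i => by
      have h := σ.injective.ne (show i + 1 ≠ i by fin_cases i <;> decide)
      generalize σ (i + 1) = a at h ⊢
      generalize σ i = b at h ⊢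
      revert h; revert a b; decide
    have hJD : ∀ i, ∀ x ∈ D i, J *ᵥ x ∈ D (i + 1) := fun i x hx => by
      fin_cases i
      · exact hJW x hx
      · exact (hJW' x hx).1
    have hW : ∀ y ∈ D 0, J *ᵥ ((g : M₄) *ᵥ y) = -d • ((g : M₄) *ᵥ (J *ᵥ y)) := by
      intro y hy
      have hu1 : J *ᵥ ((g : M₄) *ᵥ y) ∈ D (σ 1) := by
        have := hJD _ _ (hmem 0 y hy); rwa [hfin] at this
      have hu2 : (g : M₄) *ᵥ (J *ᵥ y) ∈ D (σ 1) := hmem 1 _ (hJW y hy)
      refine sub_eq_zero.1 (hzero _ _ ((D (σ 1)).sub_mem hu1 ((D (σ 1)).smul_mem _ hu2)) fun z hz => ?_)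
      rw [hfin, show (1 : Fin 2) + 1 = 0 from rfl, ← hσ 0] at hz
      obtain ⟨x, hx, rfl⟩ := hz
      rw [Matrix.toLin'_apply, map_sub, map_smul, smul_eq_mul, hiso]
      exact sub_eq_zero.2 (hωeq x hx y hy)
    have hd0 : d ≠ 0 := by
      intro h0
      have h1 := hW (w 0) (bW 0).2
      rw [h0, neg_zero, zero_smul] at h1
      have h4 := hiso (w 0) (p0 : V₄)
      have h5 : (g : M₄) *ᵥ w 0 = 0 := neg_eq_zero.1 (by rw [← hJinj, h1, Matrix.mulVec_zero])
      rw [h5, map_zero, LinearMap.zero_apply, q00] at h4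
      exact zero_ne_one h4
    refine mem_normalizer_quadAlg J hJ (neg_ne_zero.2 hd0) (Matrix.toLin'.injective ?_)
    refine LinearMap.ext fun z => ?_
    simp only [Matrix.toLin'_apply, ← Matrix.mulVec_mulVec, Matrix.smul_mulVec]
    obtain ⟨y, hy, v, hv, rfl⟩ := Submodule.mem_sup.1 (show z ∈ D 0 ⊔ D 1 from hsup ▸ Submodule.mem_top)
    simp only [Matrix.mulVec_add, smul_add]
    congr 1
    · rw [hW y hy, smul_smul, neg_mul_neg, hsq d hd0, one_smul]
    · obtain ⟨-, y', hy', rfl⟩ := hJW' v hv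
      rw [hJinj, Matrix.mulVec_neg]
      have h1 := congrArg (fun u => J *ᵥ u) (hW y' hy')
      simp only [hJinj, Matrix.mulVec_smul] at h1
      exact h1

end Cfsg.Agent.H1.SpList
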