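import Cfsg.Agent.H1.SpList.FourThree

/-!
Over three elements the normaliser of a unitary field permutes five anticommuting involutions and is therefore not
maximal in the symplectic group of dimension four.
-/

set_option autoImplicit false

open scoped MatrixGroups Matrix

namespace Cfsg.Agent.H1.SpList

open Cfsg.Geo H99.Asch

variable {F : Type*} [Field F]

local notation "V₄" => (Fin 2 ⊕ Fin 2 → F)
local notation "M₄" => Matrix (Fin 2 ⊕ Fin 2) (Fin 2 ⊕ Fin 2) F
local notation "G₄" => GL (Fin 2 ⊕ Fin 2) F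
local notation "β" => H2.sympBilin 2 F

/-- A skew root of minus one in a unitary field over three elements. -/
theorem exists_skew_root [Fintype F] (h3 : Fintype.card F = 3) {K : Subalgebra F M₄} (hK : IsFieldSubalgebra 2 K)
    (hadj : IsAdjointClosedFor (sympForm 2 F) K) (hn : ¬ IsSelfAdjointFor (sympForm 2 F) K) :
    ∃ j : M₄, j * j = -1 ∧ j ∈ K ∧ (∀ u v, β (j *ᵥ u) v = - β u (j *ᵥ v)) ∧
      ∀ k ∈ K, ∃ a b : F, k = a • 1 + b • j := by
  classical
  obtain ⟨h30, h2, hsq⟩ := TensorNM.three_facts h3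
  obtain ⟨k, hk, u₀, v₀, hne⟩ : ∃ k ∈ K, ∃ u v, β (k *ᵥ u) v ≠ β u (k *ᵥ v) := by
    by_contra hc
    push Not at hc
    exact hn fun k hk u v => by rw [← H2.sympBilin_apply, ← H2.sympBilin_apply]; exact hc k hk u v
  obtain ⟨k', hk', hk'a⟩ := hadj k hk
  have ha : ∀ u v, β (k *ᵥ u) v = β u (k' *ᵥ v) := fun u v => by
    rw [H2.sympBilin_apply, H2.sympBilin_apply]; exact hk'a u v
  set j := k - k'
  have hj : j ∈ K := K.sub_mem hk hk'
  have hsk : ∀ u v, β (j *ᵥ u) v = - β u (j *ᵥ v) := by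
    intro u v
    have h1 : β (k' *ᵥ u) v = β u (k *ᵥ v) := by
      rw [beta_swap' v, ← ha, beta_swap' u (k *ᵥ v), neg_neg]
    rw [Matrix.sub_mulVec, Matrix.sub_mulVec, map_sub, LinearMap.sub_apply, map_sub, h1, ha]
    ring
  have hjns : ∀ c : F, j ≠ c • 1 := by
    intro c hc
    have hkk : k' = k - c • 1 := by rw [← hc]; simp [j]
    by_cases hc0 : c = 0
    · rw [hkk, hc0, zero_smul, sub_zero] at ha
      exact hne (ha _ _)
    · obtain ⟨x, hx⟩ : ∃ x, β x (Pi.single (Sum.inl 0) 1) ≠ 0 := by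
        by_contra hh
        push Not at hh
        have := (H2.sympBilin_nondegenerate 2 F).2 _ hh
        simp at this
      have := hsk x (Pi.single (Sum.inl 0) 1)
      rw [hc, Matrix.smul_mulVec, Matrix.smul_mulVec, Matrix.one_mulVec, Matrix.one_mulVec, map_smul, map_smul,
        LinearMap.smul_apply, smul_eq_mul] at this
      exact mul_ne_zero (mul_ne_zero h2 hc0) hx (by linear_combination this)
  have hspan : ∀ x ∈ K, ∃ a b : F, x = a • 1 + b • j := by
    have hli : LinearIndependent F ![(1 : M₄), j] := by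
      rw [LinearIndependent.pair_iff]
      intro a b hab
      by_cases hb : b = 0
      · subst hb; simpa using hab
      · exact absurd (show j = (-(a / b)) • (1 : M₄) by
          rw [← inv_smul_smul₀ hb j, eq_neg_of_add_eq_zero_right hab, smul_neg, smul_smul, neg_smul, div_eq_inv_mul])
          (hjns _)
    have hsp : Submodule.span F (Set.range ![(1 : M₄), j]) = Subalgebra.toSubmodule K := by
      refine Submodule.eq_of_le_of_finrank_eq ?_ ?_
      · rw [Submodule.span_le]
        rintro _ ⟨i, rfl⟩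
        fin_cases i
        · exact K.one_mem
        · exact hj
      · rw [finrank_span_eq_card hli, show Module.finrank F (Subalgebra.toSubmodule K) = 2 from hK.finrank_eq]
        simp
    intro x hx
    have hx' : x ∈ Submodule.span F (Set.range ![(1 : M₄), j]) := hsp ▸ hx
    obtain ⟨c, hc⟩ := (Submodule.mem_span_range_iff_exists_fun F).1 hx'
    exact ⟨c 0, c 1, by rw [← hc, Fin.sum_univ_two]; rfl⟩
  obtain ⟨a, b, hab⟩ := hspan _ (K.mul_mem hj hj)
  have hb : b = 0 := by
    by_contra hb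
    apply hne
    exfalso
    obtain ⟨u, v, huv⟩ : ∃ u v, β (j *ᵥ u) v ≠ 0 := by
      by_contra hh
      push Not at hh
      refine hjns 0 ?_
      rw [zero_smul]
      refine Matrix.ext_of_mulVec_single fun i => ?_
      rw [Matrix.zero_mulVec]
      exact (H2.sympBilin_nondegenerate 2 F).1 _ (hh _)
    have h1 : β ((j * j) *ᵥ u) v = β u ((j * j) *ᵥ v) := by
      rw [← Matrix.mulVec_mulVec, ← Matrix.mulVec_mulVec, hsk, hsk, neg_neg]
    simp only [hab, Matrix.add_mulVec, Matrix.smul_mulVec, Matrix.one_mulVec, map_add, map_smul, LinearMap.add_apply,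
      LinearMap.smul_apply, smul_eq_mul, hsk u v] at h1
    rw [hsk] at huv
    exact mul_ne_zero (mul_ne_zero h2 hb) (neg_ne_zero.1 huv) (by linear_combination -h1)
  subst hb
  rw [zero_smul, add_zero] at hab
  refine ⟨j, ?_, hj, hsk, hspan⟩
  have hjz : j ≠ 0 := fun h => hjns 0 (by rw [h, zero_smul])
  rcases TensorNM.three_cases h3 a with rfl | rfl | rfl
  · obtain ⟨y, -, hy⟩ := hK.inv j hj hjz
    exact absurd (by rw [← mul_one j, ← hy, ← mul_assoc, hab, zero_smul, zero_mul] : j = 0) hjz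
  · exfalso
    have hp : j + 1 ≠ 0 := fun h => hjns (-1) (by rw [neg_one_smul]; exact eq_neg_of_add_eq_zero_left h)
    obtain ⟨y, -, hy⟩ := hK.inv _ (K.add_mem hj K.one_mem) hp
    refine hjns 1 ?_
    rw [one_smul, ← sub_eq_zero]
    calc j - 1 = (j - 1) * ((j + 1) * y) := by rw [hy, mul_one]
      _ = 0 := ?_
    rw [← mul_assoc]
    rw [show (j - 1) * (j + 1) = 0 by rw [mul_add, sub_mul, mul_one, one_mul, hab, one_smul]; abel, zero_mul]
  · rw [hab, neg_one_smul]

/-- An orthogonal basis of the unitary plane. -/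
theorem exists_unitary_basis [Fintype F] (h3 : Fintype.card F = 3) {j : M₄} (hj : j * j = -1)
    (hsk : ∀ u v, β (j *ᵥ u) v = - β u (j *ᵥ v)) :
    ∃ v w : V₄, β v (j *ᵥ v) = 1 ∧ β w (j *ᵥ w) = 1 ∧ β v w = 0 ∧ β v (j *ᵥ w) = 0 := by
  classical
  obtain ⟨h30, h2, hsq⟩ := TensorNM.three_facts h3
  have hjj : ∀ u, j *ᵥ (j *ᵥ u) = -u := fun u => by
    rw [Matrix.mulVec_mulVec, hj, Matrix.neg_mulVec, Matrix.one_mulVec]
  have hsym : ∀ u v, β u (j *ᵥ v) = β v (j *ᵥ u) := fun u v => by
    rw [beta_swap' (j *ᵥ u) v, hsk, neg_neg]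
  have hnorm : ∀ u, β u (j *ᵥ u) ≠ 0 → ∃ u' : V₄, β u' (j *ᵥ u') = 1 ∧ ∀ x, β x u = 0 → β x (j *ᵥ u) = 0 →
      β x u' = 0 ∧ β x (j *ᵥ u') = 0 := by
    intro u hu
    rcases TensorNM.three_cases h3 (β u (j *ᵥ u)) with h | h | h
    · exact absurd h hu
    · exact ⟨u, h, fun x h1 h2 => ⟨h1, h2⟩⟩
    · refine ⟨u + j *ᵥ u, ?_, fun x h1 h2' => ?_⟩
      · simp only [Matrix.mulVec_add, hjj, map_add, map_neg, LinearMap.add_apply, hsk u, H98.beta_self, h, neg_zero,
          neg_neg]
        linear_combination -h30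
      · simp only [Matrix.mulVec_add, hjj, map_add, map_neg, h1, h2', add_zero, neg_zero, and_self]
  obtain ⟨v₀, hv₀⟩ : ∃ v, β v (j *ᵥ v) ≠ 0 := by
    by_contra hc
    push Not at hc
    have hz : ∀ u v, β u (j *ᵥ v) = 0 := fun u v => by
      have h := hc (u + v)
      simp only [Matrix.mulVec_add, map_add, LinearMap.add_apply, hc, hsym v u] at h
      exact (mul_eq_zero.1 (show (2 : F) * β u (j *ᵥ v) = 0 by linear_combination h)).resolve_left h2
    have h0 : (Pi.single (Sum.inl 0) 1 : V₄) = 0 := (H2.sympBilin_nondegenerate 2 F).2 _ fun x => by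
      have := hz x (-(j *ᵥ Pi.single (Sum.inl 0) 1))
      rwa [Matrix.mulVec_neg, hjj, neg_neg] at this
    simp at h0
  obtain ⟨v, hv, -⟩ := hnorm v₀ hv₀
  have hv' : β (j *ᵥ v) v = -1 := by rw [beta_swap' v, hv]
  let P : V₄ → V₄ := fun x => x - β x (j *ᵥ v) • v + β x v • (j *ᵥ v)
  have hPv : ∀ x, β (P x) v = 0 ∧ β (P x) (j *ᵥ v) = 0 := fun x => by
    simp only [P, map_add, map_sub, map_smul, LinearMap.add_apply, LinearMap.sub_apply, LinearMap.smul_apply,
      smul_eq_mul, H98.beta_self, hv, hv']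
    constructor <;> ring
  have hPj : ∀ x, j *ᵥ P x = P (j *ᵥ x) := fun x => by
    have e1 : β (j *ᵥ x) (j *ᵥ v) = β x v := by rw [hsk, hjj, map_neg, neg_neg]
    have e2 : β (j *ᵥ x) v = -β x (j *ᵥ v) := hsk _ _
    simp only [P, Matrix.mulVec_add, Matrix.mulVec_sub, Matrix.mulVec_smul, hjj, e1, e2, neg_smul, smul_neg]
    abel
  obtain ⟨x₀, hx₀⟩ : ∃ x, β (P x) (j *ᵥ P x) ≠ 0 := by
    by_contra hc
    push Not at hc
    have hadd : ∀ x y, P (x + y) = P x + P y := fun x y => by
      simp only [P, map_add, LinearMap.add_apply, add_smul]; abel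
    have hz : ∀ x y, β (P x) (j *ᵥ P y) = 0 := fun x y => by
      have h := hc (x + y)
      simp only [hadd, Matrix.mulVec_add, map_add, LinearMap.add_apply, hc, hsym (P y) (P x)] at h
      exact (mul_eq_zero.1 (show (2 : F) * β (P x) (j *ᵥ P y) = 0 by linear_combination h)).resolve_left h2
    have hP0 : ∀ x, P x = 0 := fun x => (H2.sympBilin_nondegenerate 2 F).1 _ fun y => by
      have h1 := hz x (-(j *ᵥ y))
      rw [hPj, Matrix.mulVec_neg, hjj, neg_neg] at h1
      have e : y = P y + β y (j *ᵥ v) • v - β y v • (j *ᵥ v) := by simp only [P]; abel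
      rw [e, map_sub, map_add, map_smul, map_smul, (hPv x).1, (hPv x).2, h1]
      simp
    have hle : (⊤ : Submodule F V₄) ≤ Submodule.span F ({v, j *ᵥ v} : Set V₄) := fun x _ => by
      have e : x = β x (j *ᵥ v) • v - β x v • (j *ᵥ v) := by
        conv_lhs => rw [show x = P x + (β x (j *ᵥ v) • v - β x v • (j *ᵥ v)) by simp only [P]; abel, hP0, zero_add]
      rw [e]
      exact Submodule.sub_mem _ (Submodule.smul_mem _ _ (Submodule.subset_span (by simp)))
        (Submodule.smul_mem _ _ (Submodule.subset_span (by simp)))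
    have := (Submodule.finrank_mono hle).trans (finrank_span_le_card _)
    simp only [finrank_top, Set.toFinset_insert, Set.toFinset_singleton] at this
    have h4 : Module.finrank F V₄ = 4 := by simp
    have := this.trans Finset.card_le_two
    omega
  obtain ⟨w, hw, hwo⟩ := hnorm _ hx₀
  refine ⟨v, w, hv, hw, ?_⟩
  exact hwo v (by rw [beta_swap' (P x₀) v, (hPv x₀).1, neg_zero])
    (by rw [hsym v (P x₀)]; exact (hPv x₀).2)

section Ring

variable {R : Type*} [Ring R]

/-- Moving past `1 + a b` for anticommuting involutions. -/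
theorem turn {a b : R} (ha : a * a = 1) (hb : b * b = 1) (hab : b * a = -(a * b)) :
    (1 + a * b) * a = -(b * (1 + a * b)) ∧ (1 + a * b) * b = a * (1 + a * b) := by
  have e1 : a * b * a = -b := by rw [mul_assoc, hab, mul_neg, ← mul_assoc, ha, one_mul]
  have e2 : b * (a * b) = -a := by rw [← mul_assoc, hab, neg_mul, mul_assoc, hb, mul_one]
  have e3 : a * b * b = a := by rw [mul_assoc, hb, mul_one]
  have e4 : a * (a * b) = b := by rw [← mul_assoc, ha, one_mul]
  constructor
  · rw [add_mul, one_mul, mul_add, mul_one, e1, e2]; abel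
  · rw [add_mul, one_mul, mul_add, mul_one, e3, e4]; abel

theorem turn_fix {a b c : R} (hac : a * c = -(c * a)) (hbc : b * c = -(c * b)) :
    (1 + a * b) * c = c * (1 + a * b) := by
  rw [add_mul, one_mul, mul_add, mul_one, mul_assoc, hbc, mul_neg, ← mul_assoc, hac, neg_mul, neg_neg, mul_assoc]

theorem turn_mul {a b : R} (ha : a * a = 1) (hb : b * b = 1) (hab : b * a = -(a * b)) :
    (1 - a * b) * (1 + a * b) = 2 ∧ (1 + a * b) * (1 - a * b) = 2 := by
  have e : a * b * (a * b) = -1 := by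
    rw [mul_assoc, ← mul_assoc b a b, hab, neg_mul, mul_neg, mul_assoc a b b, hb, mul_one, ha]
  constructor
  · rw [sub_mul, one_mul, mul_add, mul_one, e, ← one_add_one_eq_two]; abel
  · rw [add_mul, one_mul, mul_sub, mul_one, e, ← one_add_one_eq_two]; abel

end Ring

/-- The matrices permuting a set of matrices by conjugation. -/
def conjStab {ι : Type} [Fintype ι] [DecidableEq ι] (p : Matrix ι ι F → Prop) : Subgroup (GL ι F) where
  carrier := {g | ∀ x : Matrix ι ι F, p x ↔ p ((g : Matrix ι ι F) * x * ((g⁻¹ : GL ι F) : Matrix ι ι F))}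
  one_mem' x := by simp
  mul_mem' {a b} ha hb x := by
    rw [hb x, ha _, mul_inv_rev, Units.val_mul, Units.val_mul]
    simp only [mul_assoc]
  inv_mem' {a} ha x := by
    rw [ha (((a⁻¹ : GL ι F) : Matrix ι ι F) * x * (((a⁻¹)⁻¹ : GL ι F) : Matrix ι ι F)), inv_inv]
    simp [← mul_assoc]

set_option maxHeartbeats 4000000 in
/-- Over three elements the normaliser of a unitary field is not maximal. -/
theorem not_unitary_of_maximal [Fintype F] (h3 : Fintype.card F = 3) {H : Subgroup G₄}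
    (hH : IsMaximalIn (spGL 2 F) H) {K : Subalgebra F M₄} (hK : IsFieldSubalgebra 2 K)
    (hadj : IsAdjointClosedFor (sympForm 2 F) K) (hn : ¬ IsSelfAdjointFor (sympForm 2 F) K)
    (heq : H = subalgebraNormalizer K ⊓ spGL 2 F) : False := by
  classical
  obtain ⟨h30, h2, hsq⟩ := TensorNM.three_facts h3
  obtain ⟨j, hj, hjK, hsk, hspan⟩ := exists_skew_root h3 hK hadj hn
  obtain ⟨v, w, hv, hw, hvw, hvjw⟩ := exists_unitary_basis h3 hj hsk
  have hjj : ∀ u, j *ᵥ (j *ᵥ u) = -u := fun u => by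
    rw [Matrix.mulVec_mulVec, hj, Matrix.neg_mulVec, Matrix.one_mulVec]
  have g1 : β (j *ᵥ v) v = -1 := by rw [beta_swap' v, hv]
  have g2 : β (j *ᵥ w) w = -1 := by rw [beta_swap' w, hw]
  have g3 : β w v = 0 := by rw [beta_swap' v, hvw, neg_zero]
  have g4 : β (j *ᵥ w) v = 0 := by rw [beta_swap' v, hvjw, neg_zero]
  have g5 : β (j *ᵥ v) w = 0 := by rw [hsk, hvjw, neg_zero]
  have g6 : β w (j *ᵥ v) = 0 := by rw [beta_swap' (j *ᵥ v), g5, neg_zero]
  have g7 : β (j *ᵥ v) (j *ᵥ w) = 0 := by rw [hsk, hjj, map_neg, hvw, neg_zero, neg_zero]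
  have g8 : β (j *ᵥ w) (j *ᵥ v) = 0 := by rw [beta_swap' (j *ᵥ v), g7, neg_zero]
  let B : Fin 4 → V₄ := ![v, j *ᵥ v, w, j *ᵥ w]
  have li : LinearIndependent F B := Fintype.linearIndependent_iff.2 fun g hg i => by
    have h0 := congrArg (fun x => β x v) hg
    have h1 := congrArg (fun x => β x (j *ᵥ v)) hg
    have h2' := congrArg (fun x => β x w) hg
    have h3' := congrArg (fun x => β x (j *ᵥ w)) hg
    simp [B, Fin.sum_univ_four, -H2.sympBilin_apply, H98.beta_self, hv, hw, hvw, hvjw, g1, g2, g3, g4, g5, g6, g7,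
      g8] at h0 h1 h2' h3'
    fin_cases i <;> assumption
  let bV := basisOfLinearIndependentOfCardEqFinrank li (by simp)
  have hbV : ∀ i, bV i = B i := fun i => by simp [bV]
  let img : Fin 5 → Fin 4 → V₄ :=
    ![![v, j *ᵥ v, -w, -(j *ᵥ w)], ![w, j *ᵥ w, v, j *ᵥ v], ![j *ᵥ w, -w, -(j *ᵥ v), v],
      ![w + j *ᵥ w, w - j *ᵥ w, -v - j *ᵥ v, j *ᵥ v - v], ![j *ᵥ w - w, j *ᵥ w + w, v - j *ᵥ v, -v - j *ᵥ v]]
  choose k hk using fun i => exists_matrix_of_basis bV (img i)
  have k00 : k 0 *ᵥ v = v := by simpa [hbV, B, img] using hk 0 0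
  have k01 : k 0 *ᵥ (j *ᵥ v) = j *ᵥ v := by simpa [hbV, B, img] using hk 0 1
  have k02 : k 0 *ᵥ w = -w := by simpa [hbV, B, img] using hk 0 2
  have k03 : k 0 *ᵥ (j *ᵥ w) = -(j *ᵥ w) := by simpa [hbV, B, img] using hk 0 3
  have k10 : k 1 *ᵥ v = w := by simpa [hbV, B, img] using hk 1 0
  have k11 : k 1 *ᵥ (j *ᵥ v) = j *ᵥ w := by simpa [hbV, B, img] using hk 1 1
  have k12 : k 1 *ᵥ w = v := by simpa [hbV, B, img] using hk 1 2
  have k13 : k 1 *ᵥ (j *ᵥ w) = j *ᵥ v := by simpa [hbV, B, img] using hk 1 3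
  have k20 : k 2 *ᵥ v = j *ᵥ w := by simpa [hbV, B, img] using hk 2 0
  have k21 : k 2 *ᵥ (j *ᵥ v) = -w := by simpa [hbV, B, img] using hk 2 1
  have k22 : k 2 *ᵥ w = -(j *ᵥ v) := by simpa [hbV, B, img] using hk 2 2
  have k23 : k 2 *ᵥ (j *ᵥ w) = v := by simpa [hbV, B, img] using hk 2 3
  have k30 : k 3 *ᵥ v = w + j *ᵥ w := by simpa [hbV, B, img] using hk 3 0
  have k31 : k 3 *ᵥ (j *ᵥ v) = w - j *ᵥ w := by simpa [hbV, B, img] using hk 3 1
  have k32 : k 3 *ᵥ w = -v - j *ᵥ v := by simpa [hbV, B, img] using hk 3 2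
  have k33 : k 3 *ᵥ (j *ᵥ w) = j *ᵥ v - v := by simpa [hbV, B, img] using hk 3 3
  have k40 : k 4 *ᵥ v = j *ᵥ w - w := by simpa [hbV, B, img] using hk 4 0
  have k41 : k 4 *ᵥ (j *ᵥ v) = j *ᵥ w + w := by simpa [hbV, B, img] using hk 4 1
  have k42 : k 4 *ᵥ w = v - j *ᵥ v := by simpa [hbV, B, img] using hk 4 2
  have k43 : k 4 *ᵥ (j *ᵥ w) = -v - j *ᵥ v := by simpa [hbV, B, img] using hk 4 3
  have hsa : ∀ i u u', β (k i *ᵥ u) u' = β u (k i *ᵥ u') := fun i => selfAdjoint_of_basis bV fun a b => by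
    fin_cases i <;> fin_cases a <;> fin_cases b <;>
      simp [hbV, B, -H2.sympBilin_apply, H98.beta_self, hv, hw, hvw, hvjw, g1, g2, g3, g4, g5, g6, g7, g8,
        k00, k01, k02, k03, k10, k11, k12, k13, k20, k21, k22, k23, k30, k31, k32, k33, k40, k41, k42, k43]
  have hext : ∀ {X Y : M₄}, X *ᵥ v = Y *ᵥ v → X *ᵥ (j *ᵥ v) = Y *ᵥ (j *ᵥ v) → X *ᵥ w = Y *ᵥ w →
      X *ᵥ (j *ᵥ w) = Y *ᵥ (j *ᵥ w) → X = Y := fun {X Y} a b c d => mulVec_ext bV fun i => by
    rw [hbV]; fin_cases i <;> assumption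
  have hz3 : ∀ x : V₄, (3 : ℤ) • x = 0 := fun x => by
    rw [← Int.cast_smul_eq_zsmul F]; push_cast; rw [h30, zero_smul]
  have hz3' : ∀ x : V₄, (-3 : ℤ) • x = 0 := fun x => by rw [neg_smul, hz3, neg_zero]
  have hk2 : ∀ i, k i * k i = 1 := fun i => by
    fin_cases i <;> apply hext <;>
      simp [← Matrix.mulVec_mulVec, Matrix.mulVec_neg, Matrix.mulVec_add, Matrix.mulVec_sub,
        k00, k01, k02, k03, k10, k11, k12, k13, k20, k21, k22, k23, k30, k31, k32, k33, k40, k41, k42, k43] <;>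
      (rw [← sub_eq_zero]; abel_nf; simp [hz3, hz3'])
  have hanti : ∀ a b, a ≠ b → k b * k a = -(k a * k b) := fun a b hab => by
    fin_cases a <;> fin_cases b <;> first | exact absurd rfl hab |
      (apply hext <;>
      simp [← Matrix.mulVec_mulVec, Matrix.mulVec_neg, Matrix.neg_mulVec, Matrix.mulVec_add, Matrix.mulVec_sub,
        k00, k01, k02, k03, k10, k11, k12, k13, k20, k21, k22, k23, k30, k31, k32, k33, k40, k41, k42, k43] <;>
      abel)
  have hj34 : k 3 * k 4 = -j := by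
    apply hext <;>
      simp [← Matrix.mulVec_mulVec, Matrix.mulVec_neg, Matrix.neg_mulVec, Matrix.mulVec_add, Matrix.mulVec_sub, hjj,
        k30, k31, k32, k33, k40, k41, k42, k43] <;>
      (rw [← sub_eq_zero]; abel_nf; simp [hz3, hz3'])
  have hcomm : ∀ i : Fin 5, (i.val ≤ 2 → k i * j = j * k i) ∧ (3 ≤ i.val → k i * j = -(j * k i)) := by
    intro i
    fin_cases i <;> refine ⟨fun hi => ?_, fun hi => ?_⟩ <;> first | (exfalso; simp at hi; done) |
      (apply hext <;>
      simp [← Matrix.mulVec_mulVec, Matrix.mulVec_neg, Matrix.neg_mulVec, Matrix.mulVec_add, Matrix.mulVec_sub, hjj,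
        k00, k01, k02, k03, k10, k11, k12, k13, k20, k21, k22, k23, k30, k31, k32, k33, k40, k41, k42, k43] <;>
      abel)
  let mem : M₄ → Prop := fun x => ∃ i, x = k i ∨ x = -k i
  -- classification
  have hclass : ∀ x : M₄, (∀ u u', β (x *ᵥ u) u' = β u (x *ᵥ u')) → x * x = 1 → x ≠ 1 → x ≠ -1 →
      (x * j = j * x ∨ x * j = -(j * x)) → mem x := by
    intro x hxa hx2 hx1 hxm hxj
    have hxalt := alt_of_selfAdjoint h2 hxa
    obtain ⟨c, hcv⟩ : ∃ c : Fin 4 → F, x *ᵥ v = ∑ i, c i • B i :=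
      ⟨fun i => bV.repr (x *ᵥ v) i, by simp only [← hbV]; exact (bV.sum_repr _).symm⟩
    obtain ⟨d, hdw⟩ : ∃ d : Fin 4 → F, x *ᵥ w = ∑ i, d i • B i :=
      ⟨fun i => bV.repr (x *ᵥ w) i, by simp only [← hbV]; exact (bV.sum_repr _).symm⟩
    simp [B, Fin.sum_univ_four] at hcv hdw
    have ev : β (x *ᵥ v) v = 0 := hxalt v
    have ew : β (x *ᵥ w) w = 0 := hxalt w
    have evw := hxa v w
    simp [hcv, hdw, -H2.sympBilin_apply, H98.beta_self, hv, hw, hvw, hvjw, g1, g2, g3, g4, g5, g6, g7, g8] at ev ew evw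
    rcases hxj with hxj | hxj
    · have hxjv : ∀ u, x *ᵥ (j *ᵥ u) = j *ᵥ (x *ᵥ u) := fun u => by
        rw [Matrix.mulVec_mulVec, Matrix.mulVec_mulVec, hxj]
      have evjw := hxa v (j *ᵥ w)
      simp [hxjv, hcv, hdw, -H2.sympBilin_apply, H98.beta_self, hv, hw, hvw, hvjw, g1, g2, g3, g4, g5, g6, g7, g8,
        Matrix.mulVec_add, Matrix.mulVec_smul, Matrix.mulVec_neg, hjj] at evjw
      have hq := congrArg (fun X : M₄ => X *ᵥ v) hx2
      simp [← Matrix.mulVec_mulVec, hxjv, hcv, hdw, Matrix.mulVec_add, Matrix.mulVec_smul, Matrix.mulVec_neg, hjj,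
        Matrix.one_mulVec] at hq
      have hq' := congrArg (fun X : M₄ => X *ᵥ w) hx2
      simp [← Matrix.mulVec_mulVec, hxjv, hcv, hdw, Matrix.mulVec_add, Matrix.mulVec_smul, Matrix.mulVec_neg, hjj,
        Matrix.one_mulVec] at hq'
      have q0 := congrArg (fun z => β z (j *ᵥ v)) hq
      have q2 := congrArg (fun z => β z (j *ᵥ w)) hq
      have q3 := congrArg (fun z => β z w) hq
      have r2 := congrArg (fun z => β z (j *ᵥ w)) hq'
      simp [-H2.sympBilin_apply, H98.beta_self, hv, hw, hvw, hvjw, g1, g2, g3, g4, g5, g6, g7, g8] at q0 q2 q3 r2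
      have hd1 : d 1 = -c 3 := by linear_combination -evw
      have hd0 : d 0 = c 2 := by linear_combination -evjw
      simp only [ev, ew, hd1, hd0, zero_smul, add_zero] at hcv hdw
      simp only [ev, ew, hd1, hd0] at q0 q2 q3 r2
      have key : ∀ y : M₄, y * j = j * y → x *ᵥ v = y *ᵥ v → x *ᵥ w = y *ᵥ w → x = y := fun y hy e1 e2 =>
        hext e1 (by rw [hxjv, e1, Matrix.mulVec_mulVec, Matrix.mulVec_mulVec, hy]) e2
          (by rw [hxjv, e2, Matrix.mulVec_mulVec, Matrix.mulVec_mulVec, hy])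
      by_cases hs : c 0 + d 2 = 0
      · have hd2 : d 2 = -c 0 := eq_neg_of_add_eq_zero_right hs
        rw [hd2] at hdw
        have hsum : c 0 * c 0 + c 2 * c 2 + c 3 * c 3 = 1 := by linear_combination q0
        by_cases h0 : c 0 = 0
        · by_cases h22 : c 2 = 0
          · rcases TensorNM.three_cases h3 (c 3) with h | h | h
            · rw [h0, h22, h] at hsum; simp at hsum
            · exact ⟨2, Or.inl (key _ ((hcomm 2).1 le_rfl) (by simp [hcv, k20, h0, h22, h])
                (by simp [hdw, k22, h0, h22, h]))⟩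
            · exact ⟨2, Or.inr (key _ (by rw [neg_mul, mul_neg, (hcomm 2).1 le_rfl])
                (by simp [hcv, k20, h0, h22, h, Matrix.neg_mulVec]) (by simp [hdw, k22, h0, h22, h, Matrix.neg_mulVec]))⟩
          · have h33 : c 3 = 0 := by
              rw [h0, hsq _ h22] at hsum
              exact mul_self_eq_zero.1 (by linear_combination hsum)
            rcases TensorNM.three_cases h3 (c 2) with h | h | h
            · exact absurd h h22
            · exact ⟨1, Or.inl (key _ ((hcomm 1).1 (by decide)) (by simp [hcv, k10, h0, h33, h])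
                (by simp [hdw, k12, h0, h33, h]))⟩
            · exact ⟨1, Or.inr (key _ (by rw [neg_mul, mul_neg, (hcomm 1).1 (by decide)])
                (by simp [hcv, k10, h0, h33, h, Matrix.neg_mulVec]) (by simp [hdw, k12, h0, h33, h, Matrix.neg_mulVec]))⟩
        · have hs2 : c 2 * c 2 + c 3 * c 3 = 0 := by rw [hsq _ h0] at hsum; linear_combination hsum
          have h22 : c 2 = 0 := by
            by_contra h
            exact no_sqrt_neg_one h3 (c 3) (by rw [hsq _ h] at hs2; linear_combination hs2)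
          have h33 : c 3 = 0 := mul_self_eq_zero.1 (by rw [h22] at hs2; linear_combination hs2)
          rcases TensorNM.three_cases h3 (c 0) with h | h | h
          · exact absurd h h0
          · exact ⟨0, Or.inl (key _ ((hcomm 0).1 (by decide)) (by simp [hcv, k00, h22, h33, h])
              (by simp [hdw, k02, h22, h33, h]))⟩
          · exact ⟨0, Or.inr (key _ (by rw [neg_mul, mul_neg, (hcomm 0).1 (by decide)])
              (by simp [hcv, k00, h22, h33, h, Matrix.neg_mulVec]) (by simp [hdw, k02, h22, h33, h, Matrix.neg_mulVec]))⟩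
      · exfalso
        have h22 : c 2 = 0 :=
          (mul_eq_zero.1 (show (c 0 + d 2) * c 2 = 0 by linear_combination q2)).resolve_left hs
        have h33 : c 3 = 0 :=
          (mul_eq_zero.1 (show (c 0 + d 2) * c 3 = 0 by first | linear_combination q3 | linear_combination -q3)).resolve_left hs
        rw [h22, h33] at q0 r2
        rcases mul_self_eq_one_iff.1 (show c 0 * c 0 = 1 by linear_combination q0) with h | h <;>
          rcases mul_self_eq_one_iff.1 (show d 2 * d 2 = 1 by linear_combination r2) with h' | h'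
        · exact hx1 (key _ (by rw [one_mul, mul_one]) (by simp [hcv, h22, h33, h]) (by simp [hdw, h22, h33, h']))
        · exact hs (by rw [h, h']; ring)
        · exact hs (by rw [h, h']; ring)
        · exact hxm (key _ (by rw [neg_one_mul, mul_neg_one]) (by simp [hcv, h22, h33, h, Matrix.neg_mulVec])
            (by simp [hdw, h22, h33, h', Matrix.neg_mulVec]))
    · have hxjv : ∀ u, x *ᵥ (j *ᵥ u) = -(j *ᵥ (x *ᵥ u)) := fun u => by
        rw [Matrix.mulVec_mulVec, Matrix.mulVec_mulVec, hxj, Matrix.neg_mulVec]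
      have evjw := hxa v (j *ᵥ w)
      have evjv := hxa v (j *ᵥ v)
      have ewjw := hxa w (j *ᵥ w)
      simp [hxjv, hcv, hdw, -H2.sympBilin_apply, H98.beta_self, hv, hw, hvw, hvjw, g1, g2, g3, g4, g5, g6, g7, g8,
        Matrix.mulVec_add, Matrix.mulVec_smul, Matrix.mulVec_neg, hjj] at evjw evjv ewjw
      have hq := congrArg (fun X : M₄ => X *ᵥ v) hx2
      simp [← Matrix.mulVec_mulVec, hxjv, hcv, hdw, Matrix.mulVec_add, Matrix.mulVec_smul, Matrix.mulVec_neg, hjj,
        Matrix.one_mulVec] at hq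
      have q0 := congrArg (fun z => β z (j *ᵥ v)) hq
      simp [-H2.sympBilin_apply, H98.beta_self, hv, hw, hvw, hvjw, g1, g2, g3, g4, g5, g6, g7, g8] at q0
      have hd1 : d 1 = -c 3 := by linear_combination -evw
      have hd0 : d 0 = -c 2 := by linear_combination evjw
      have hc0 : c 0 = 0 :=
        (mul_eq_zero.1 (show (2 : F) * c 0 = 0 by linear_combination evjv)).resolve_left h2
      have hd2 : d 2 = 0 :=
        (mul_eq_zero.1 (show (2 : F) * d 2 = 0 by linear_combination ewjw)).resolve_left h2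
      simp only [ev, ew, hd1, hd0, hc0, hd2, zero_smul, add_zero, zero_add] at hcv hdw
      simp only [ev, ew, hd1, hd0, hc0, hd2] at q0
      have hsum : c 2 * c 2 + c 3 * c 3 = -1 := by linear_combination -q0
      have h22 : c 2 ≠ 0 := fun h => no_sqrt_neg_one h3 (c 3) (by rw [h] at hsum; linear_combination hsum)
      have h33 : c 3 ≠ 0 := fun h => no_sqrt_neg_one h3 (c 2) (by rw [h] at hsum; linear_combination hsum)
      have key : ∀ y : M₄, y * j = -(j * y) → x *ᵥ v = y *ᵥ v → x *ᵥ w = y *ᵥ w → x = y := fun y hy e1 e2 =>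
        hext e1 (by rw [hxjv, e1, Matrix.mulVec_mulVec, Matrix.mulVec_mulVec, hy, Matrix.neg_mulVec]) e2
          (by rw [hxjv, e2, Matrix.mulVec_mulVec, Matrix.mulVec_mulVec, hy, Matrix.neg_mulVec])
      have hneg : ∀ i : Fin 5, 3 ≤ i.val → (-k i) * j = -(j * -k i) := fun i hi => by
        rw [neg_mul, mul_neg, (hcomm i).2 hi]
      rcases TensorNM.three_cases h3 (c 2) with h | h | h
      · exact absurd h h22
      all_goals rcases TensorNM.three_cases h3 (c 3) with h' | h' | h'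
      · exact absurd h' h33
      · exact ⟨3, Or.inl (key _ ((hcomm 3).2 le_rfl) (by simp [hcv, k30, h, h'])
          (by simp [hdw, k32, h, h'] <;> abel))⟩
      · exact ⟨4, Or.inr (key _ (hneg 4 (by decide)) (by simp [hcv, k40, h, h', Matrix.neg_mulVec] <;> abel)
          (by simp [hdw, k42, h, h', Matrix.neg_mulVec] <;> abel))⟩
      · exact absurd h' h33
      · exact ⟨4, Or.inl (key _ ((hcomm 4).2 (by decide)) (by simp [hcv, k40, h, h'] <;> abel)
          (by simp [hdw, k42, h, h'] <;> abel))⟩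
      · exact ⟨3, Or.inr (key _ (hneg 3 le_rfl) (by simp [hcv, k30, h, h', Matrix.neg_mulVec] <;> abel)
          (by simp [hdw, k32, h, h', Matrix.neg_mulVec] <;> abel))⟩
  -- the elements of the normaliser permute the involutions
  have hj_conj : ∀ g ∈ H, (g : M₄) * j * ((g⁻¹ : G₄) : M₄) = j ∨ (g : M₄) * j * ((g⁻¹ : G₄) : M₄) = -j := by
    intro g hg
    rw [heq] at hg
    obtain ⟨a, b, hab⟩ := hspan _ ((hg.1 j).1 hjK)
    have hsq' : (a • (1 : M₄) + b • j) * (a • 1 + b • j) = -1 := by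
      rw [← hab, show (g : M₄) * j * ((g⁻¹ : G₄) : M₄) * ((g : M₄) * j * ((g⁻¹ : G₄) : M₄)) =
        (g : M₄) * (j * j) * ((g⁻¹ : G₄) : M₄) by simp [mul_assoc], hj, mul_neg_one, neg_mul, Units.mul_inv]
    have hv0 : v ≠ 0 := fun h => by rw [h, map_zero, LinearMap.zero_apply] at hv; exact zero_ne_one hv
    have e := congrArg (fun X : M₄ => X *ᵥ v) hsq'
    simp [← Matrix.mulVec_mulVec, Matrix.add_mulVec, Matrix.smul_mulVec, Matrix.mulVec_add, Matrix.mulVec_smul, hjj,
      Matrix.neg_mulVec] at e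
    have e1 := congrArg (fun z => β z (j *ᵥ v)) e
    have e2 := congrArg (fun z => β z v) e
    simp [-H2.sympBilin_apply, H98.beta_self, hv, g1] at e1 e2
    have hb : b ≠ 0 := fun h => no_sqrt_neg_one h3 a (by rw [h] at e1; linear_combination e1)
    have ha : a = 0 := by
      by_contra ha
      exact mul_ne_zero (mul_ne_zero h2 ha) hb (by first | linear_combination e2 | linear_combination -e2)
    rcases TensorNM.three_cases h3 b with h | h | h
    · exact absurd h hb
    · left; rw [hab, ha, h]; simp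
    · right; rw [hab, ha, h]; simp
  have hfwd : ∀ g ∈ H, ∀ x, mem x → mem ((g : M₄) * x * ((g⁻¹ : G₄) : M₄)) := by
    intro g hg x hx
    set G : M₄ := (g : M₄)
    set Gi : M₄ := ((g⁻¹ : G₄) : M₄)
    have hGi : Gi * G = 1 := Units.inv_mul g
    have hGG : G * Gi = 1 := Units.mul_inv g
    have hiso : ∀ u u', β (G *ᵥ u) (G *ᵥ u') = β u u' := H98.mem_spGL.1 (hH.1.le hg)
    have hxa : ∀ u u', β (x *ᵥ u) u' = β u (x *ᵥ u') := by
      obtain ⟨i, rfl | rfl⟩ := hx
      · exact hsa i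
      · intro u u'; simp [-H2.sympBilin_apply, Matrix.neg_mulVec, hsa i]
    have hx2 : x * x = 1 := by
      obtain ⟨i, rfl | rfl⟩ := hx
      · exact hk2 i
      · rw [neg_mul_neg, hk2 i]
    have hxns : ∀ c : F, x ≠ c • 1 := by
      intro c hc
      obtain ⟨i, h⟩ := hx
      obtain ⟨l, hl⟩ : ∃ l : Fin 5, i ≠ l := ⟨i + 1, by fin_cases i <;> decide⟩
      have hkc : ∃ c' : F, k i = c' • (1 : M₄) := by
        rcases h with rfl | rfl
        · exact ⟨c, hc⟩
        · exact ⟨-c, by rw [neg_smul, ← hc, neg_neg]⟩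
      obtain ⟨c', hc'⟩ := hkc
      have h1 := hanti i l hl
      rw [hc', mul_smul_comm, smul_mul_assoc, mul_one, one_mul, eq_neg_iff_add_eq_zero, ← two_smul F,
        smul_eq_zero, smul_eq_zero] at h1
      have hki : k i ≠ 0 := fun e => one_ne_zero (α := M₄) (by rw [← hk2 i, e, mul_zero])
      have hkl : k l ≠ 0 := fun e => one_ne_zero (α := M₄) (by rw [← hk2 l, e, mul_zero])
      rcases h1 with h1 | h1 | h1
      · exact h2 h1
      · exact hki (by rw [hc', h1, zero_smul])
      · exact hkl h1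
    refine hclass _ (fun u u' => ?_) ?_ ?_ ?_ ?_
    · obtain ⟨p, rfl⟩ : ∃ p, u = G *ᵥ p := ⟨Gi *ᵥ u, by rw [Matrix.mulVec_mulVec, hGG, Matrix.one_mulVec]⟩
      obtain ⟨q, rfl⟩ : ∃ q, u' = G *ᵥ q := ⟨Gi *ᵥ u', by rw [Matrix.mulVec_mulVec, hGG, Matrix.one_mulVec]⟩
      rw [Matrix.mulVec_mulVec, Matrix.mulVec_mulVec, mul_assoc, hGi, mul_one, ← Matrix.mulVec_mulVec,
        ← Matrix.mulVec_mulVec, hiso, hiso, hxa]
    · rw [show G * x * Gi * (G * x * Gi) = G * (x * (Gi * G) * x) * Gi by simp only [mul_assoc], hGi, mul_one, hx2,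
        mul_one, hGG]
    · intro h
      refine hxns 1 ?_
      have := congrArg (fun X => Gi * X * G) h
      simp only [mul_one, hGi] at this
      rw [one_smul, ← this, ← mul_assoc, ← mul_assoc, hGi, one_mul, mul_assoc, hGi, mul_one]
    · intro h
      refine hxns (-1) ?_
      have := congrArg (fun X => Gi * X * G) h
      simp only [mul_neg, neg_mul, mul_one, hGi] at this
      rw [neg_one_smul, ← this, ← mul_assoc, ← mul_assoc, hGi, one_mul, mul_assoc, hGi, mul_one]
    · have hxj : x * j = j * x ∨ x * j = -(j * x) := by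
        obtain ⟨i, h⟩ := hx
        rcases Nat.lt_or_ge i.val 3 with hi | hi <;> rcases h with rfl | rfl
        · exact Or.inl ((hcomm i).1 (by omega))
        · exact Or.inl (by rw [neg_mul, mul_neg, (hcomm i).1 (by omega)])
        · exact Or.inr ((hcomm i).2 hi)
        · exact Or.inr (by rw [neg_mul, mul_neg, (hcomm i).2 hi])
      have hconj : ∀ A B : M₄, G * (A * B) * Gi = G * A * Gi * (G * B * Gi) := fun A B => by
        rw [show G * A * Gi * (G * B * Gi) = G * A * (Gi * G) * (B * Gi) by simp only [mul_assoc], hGi, mul_one]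
        simp only [mul_assoc]
      have hxc : G * x * Gi * (G * j * Gi) = G * j * Gi * (G * x * Gi) ∨
          G * x * Gi * (G * j * Gi) = -(G * j * Gi * (G * x * Gi)) := by
        rcases hxj with h | h
        · left; rw [← hconj, ← hconj, h]
        · right; rw [← hconj, ← hconj, h, mul_neg, neg_mul]
      rcases hj_conj g hg with e | e <;> simp only [G, Gi] at hxc ⊢ <;> rw [e] at hxc
      · exact hxc
      · rcases hxc with h | h <;> rw [mul_neg, neg_mul, neg_inj] at h
        · exact Or.inl h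
        · exact Or.inr h
  have hHM : H ≤ conjStab mem := fun g hg x => ⟨hfwd g hg x, fun hx => by
    have := hfwd g⁻¹ (inv_mem hg) _ hx
    rwa [inv_inv, ← mul_assoc, ← mul_assoc, Units.inv_mul, one_mul, mul_assoc, Units.inv_mul, mul_one] at this⟩
  -- an element outside
  have a34 := turn (hk2 3) (hk2 4) (hanti 3 4 (by decide))
  have a23 := turn (hk2 2) (hk2 3) (hanti 2 3 (by decide))
  have m34 := turn_mul (hk2 3) (hk2 4) (hanti 3 4 (by decide))
  have m23 := turn_mul (hk2 2) (hk2 3) (hanti 2 3 (by decide))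
  set T : M₄ := 1 + k 2 * k 3 with hT
  set T' : M₄ := 1 + k 3 * k 4 with hT'
  have h4 : (2 : M₄) * 2 = 1 := by
    rw [← map_ofNat (algebraMap F M₄) 2, ← map_mul, show (2 : F) * 2 = 1 by linear_combination h30, map_one]
  have hsum : ∀ A B A' B' : M₄, A * B = 2 → A' * B' = 2 → A' * A * (B * B') = 1 := fun A B A' B' h h' => by
    rw [mul_assoc, ← mul_assoc A, h, two_mul, mul_add, h', ← two_mul, h4]
  let s : G₄ := ⟨T * T', (1 - k 3 * k 4) * (1 - k 2 * k 3), hsum _ _ _ _ m34.2 m23.2, hsum _ _ _ _ m23.1 m34.1⟩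
  have hsv : (s : M₄) = T * T' := rfl
  have hfix : ∀ a b c : Fin 5, a ≠ c → b ≠ c → (1 + k a * k b) * k c = k c * (1 + k a * k b) := fun a b c hac hbc =>
    turn_fix (hanti c a (Ne.symm hac)) (hanti c b (Ne.symm hbc))
  have hmul : ∀ c c' : M₄, (s : M₄) * c = c' * (s : M₄) → (s : M₄) * c * ((s⁻¹ : G₄) : M₄) = c' := fun c c' h => by
    rw [h, mul_assoc, Units.mul_inv, mul_one]
  have e0 : ∀ c : Fin 5, c.val ≤ 1 → (s : M₄) * k c * ((s⁻¹ : G₄) : M₄) = k c := fun c hc => hmul _ _ (by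
    rw [hsv, mul_assoc, hT', hfix 3 4 c (fun e => by subst e; simp at hc) (fun e => by subst e; simp at hc), ← mul_assoc,
      hT, hfix 2 3 c (fun e => by subst e; simp at hc) (fun e => by subst e; simp at hc), mul_assoc])
  have e2' : (s : M₄) * k 2 * ((s⁻¹ : G₄) : M₄) = -k 3 := hmul _ _ (by
    rw [hsv, mul_assoc, hT', hfix 3 4 2 (by decide) (by decide), ← mul_assoc, hT, a23.1, neg_mul, neg_mul, mul_assoc])
  have e3' : (s : M₄) * k 3 * ((s⁻¹ : G₄) : M₄) = -k 4 := hmul _ _ (by
    rw [hsv, mul_assoc, hT', a34.1, mul_neg, ← mul_assoc, hT, hfix 2 3 4 (by decide) (by decide), neg_mul, mul_assoc])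
  have e4' : (s : M₄) * k 4 * ((s⁻¹ : G₄) : M₄) = k 2 := hmul _ _ (by
    rw [hsv, mul_assoc, hT', a34.2, ← mul_assoc, hT, a23.2, mul_assoc])
  have hperm : ∀ c : Fin 5, mem ((s : M₄) * k c * ((s⁻¹ : G₄) : M₄)) := fun c => by
    fin_cases c
    · exact ⟨0, Or.inl (e0 0 (by decide))⟩
    · exact ⟨1, Or.inl (e0 1 le_rfl)⟩
    · exact ⟨3, Or.inr e2'⟩
    · exact ⟨4, Or.inr e3'⟩
    · exact ⟨2, Or.inl e4'⟩
  have hsM : s ∈ conjStab mem := by
    intro x
    constructor
    · rintro ⟨i, rfl | rfl⟩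
      · exact hperm i
      · obtain ⟨l, hl⟩ := hperm i
        refine ⟨l, ?_⟩
        rw [mul_neg, neg_mul, neg_eq_iff_eq_neg, neg_inj]
        exact hl.symm
    · rintro ⟨i, hi⟩
      obtain ⟨c, hc⟩ : ∃ c : Fin 5, k i = (s : M₄) * k c * ((s⁻¹ : G₄) : M₄) ∨
          k i = -((s : M₄) * k c * ((s⁻¹ : G₄) : M₄)) := by
        fin_cases i
        · exact ⟨0, Or.inl (e0 0 (by decide)).symm⟩
        · exact ⟨1, Or.inl (e0 1 le_rfl).symm⟩
        · exact ⟨4, Or.inl e4'.symm⟩
        · exact ⟨2, Or.inr (by rw [e2']; exact (neg_neg _).symm)⟩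
        · exact ⟨3, Or.inr (by rw [e3']; exact (neg_neg _).symm)⟩
      have hinj : ∀ y : M₄, (s : M₄) * x * ((s⁻¹ : G₄) : M₄) = (s : M₄) * y * ((s⁻¹ : G₄) : M₄) → x = y := fun y h => by
        have := congrArg (fun X => ((s⁻¹ : G₄) : M₄) * X * (s : M₄)) h
        simp only [← mul_assoc, Units.inv_mul, one_mul] at this
        simpa only [mul_assoc, Units.inv_mul, mul_one] using this
      refine ⟨c, ?_⟩
      rcases hi with hi | hi <;> rcases hc with hc | hc <;> rw [hc] at hi
      · exact Or.inl (hinj _ hi)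
      · exact Or.inr (hinj _ (by rw [hi, mul_neg, neg_mul]))
      · exact Or.inr (hinj _ (by rw [hi, mul_neg, neg_mul]))
      · exact Or.inl (hinj _ (by rw [hi, neg_neg]))
  have hadjT : ∀ a b : Fin 5, a ≠ b → ∀ u u' : V₄,
      β ((1 + k a * k b) *ᵥ u) ((1 + k a * k b) *ᵥ u') = 2 * β u u' := by
    intro a b hab u u'
    have e : ∀ y z, β ((1 + k a * k b) *ᵥ y) z = β y ((1 - k a * k b) *ᵥ z) := fun y z => by
      rw [Matrix.add_mulVec, Matrix.sub_mulVec, Matrix.one_mulVec, Matrix.one_mulVec, ← Matrix.mulVec_mulVec, map_add,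
        map_sub, LinearMap.add_apply, hsa, hsa, Matrix.mulVec_mulVec, hanti a b hab, Matrix.neg_mulVec, map_neg,
        sub_eq_add_neg]
    rw [e, Matrix.mulVec_mulVec, (turn_mul (hk2 a) (hk2 b) (hanti a b hab)).1]
    rw [show (2 : M₄) *ᵥ u' = (2 : F) • u' by
      rw [show (2 : M₄) = 1 + 1 from one_add_one_eq_two.symm, Matrix.add_mulVec, Matrix.one_mulVec, two_smul]]
    rw [map_smul, smul_eq_mul]
  have hsS : s ∈ spGL 2 F := H98.mem_spGL.2 fun u u' => by
    rw [hsv, ← Matrix.mulVec_mulVec, ← Matrix.mulVec_mulVec, hT, hadjT 2 3 (by decide), hT',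
      hadjT 3 4 (by decide), ← mul_assoc, show (2 : F) * 2 = 1 by linear_combination h30, one_mul]
  -- the symplectic group moves one of the involutions
  have hnS : ¬ spGL 2 F ≤ conjStab mem := by
    intro hle
    let K0 : G₄ := ⟨k 0, k 0, hk2 0, hk2 0⟩
    obtain ⟨c, hc⟩ := scalar_of_commute_sp (m := 2) (x := (K0 : M₄)) one_le_two fun u => by
      set t := H98.spTrans u (1 : F)
      have hz := rank_trans_conj_le u K0
      obtain ⟨i, hi⟩ := (hle (H98.spTrans_mem u 1) (k 0)).1 ⟨0, Or.inl rfl⟩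
      set z : M₄ := ((t * K0 * t⁻¹ * K0⁻¹ : G₄) : M₄) with hzdef
      have hzv : z = (t : M₄) * k 0 * ((t⁻¹ : G₄) : M₄) * k 0 := rfl
      by_contra hne
      have hunit : IsUnit (z - 1) := by
        have hneg1 : IsUnit ((-1 : M₄) - 1) := by
          rw [show (-1 : M₄) - 1 = algebraMap F M₄ (-2) by
            rw [map_neg, map_ofNat, show (2 : M₄) = 1 + 1 from one_add_one_eq_two.symm]; abel]
          exact (IsUnit.mk0 _ (neg_ne_zero.2 h2)).map _
        by_cases h0 : i = 0
        · subst h0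
          rcases hi with hi | hi
          · exfalso
            refine hne ?_
            have := congrArg (fun X => X * (t : M₄)) hi
            simp only [mul_assoc] at this
            rw [show (t : M₄) = ((H98.spTrans u (1 : F) : G₄) : M₄) from rfl, Units.inv_mul, mul_one] at this
            exact this.symm
          · rw [hzv, hi, neg_mul, hk2]; exact hneg1
        · have hsq : (k i * k 0) * (k i * k 0) = -1 := by
            rw [mul_assoc, ← mul_assoc (k 0), hanti i 0 h0, neg_mul, mul_neg, mul_assoc (k i) (k 0) (k 0), hk2, mul_one,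
              hk2]
          have hu : ∀ y : M₄, y * y = -1 → IsUnit (y - 1) := fun y hy =>
            IsUnit.of_mul_eq_one (y + 1) (by
              rw [sub_mul, one_mul, mul_add, mul_one, hy, show (-1 : M₄) + y - (y + 1) = -2 by
                rw [show (2 : M₄) = 1 + 1 from one_add_one_eq_two.symm]; abel]
              rw [show (-2 : M₄) = 1 by
                rw [← map_ofNat (algebraMap F M₄) 2, ← map_neg, show (-2 : F) = 1 by linear_combination -h30, map_one]])
          rcases hi with hi | hi <;> rw [hzv, hi]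
          · exact hu _ hsq
          · exact hu _ (by rw [neg_mul, neg_mul_neg, hsq])
      change (z - 1).rank ≤ 2 at hz
      rw [Matrix.rank_of_isUnit _ hunit] at hz
      simp at hz
    have h1 := hanti 0 1 (by decide)
    rw [show k 0 = c • (1 : M₄) from hc, mul_smul_comm, smul_mul_assoc, mul_one, one_mul, eq_neg_iff_add_eq_zero,
      ← two_smul F, smul_eq_zero, smul_eq_zero] at h1
    rcases h1 with h1 | h1 | h1
    · exact h2 h1
    · exact one_ne_zero (α := M₄) (by rw [← hk2 0, show k 0 = c • (1 : M₄) from hc, h1, zero_smul, mul_zero])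
    · exact one_ne_zero (α := M₄) (by rw [← hk2 1, h1, mul_zero])
  have hsH : s ∈ H := by
    rcases hH.2 (conjStab mem ⊓ spGL 2 F) (le_inf hHM hH.1.le) inf_le_right with h | h
    · exact h ▸ ⟨hsM, hsS⟩
    · exact absurd (inf_eq_right.1 h) hnS
  -- but it moves the root of minus one
  have hsj : (s : M₄) * j * ((s⁻¹ : G₄) : M₄) = k 4 * k 2 := by
    rw [show j = -(k 3 * k 4) by rw [hj34, neg_neg], mul_neg, neg_mul]
    have : (s : M₄) * (k 3 * k 4) * ((s⁻¹ : G₄) : M₄) =
        (s : M₄) * k 3 * ((s⁻¹ : G₄) : M₄) * ((s : M₄) * k 4 * ((s⁻¹ : G₄) : M₄)) := by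
      simp only [mul_assoc]
      rw [← mul_assoc ((s⁻¹ : G₄) : M₄) (s : M₄), Units.inv_mul, one_mul]
    rw [this, e3', e4', neg_mul, neg_neg]
  rcases hj_conj s hsH with h | h <;> rw [hsj] at h <;>
  · have h' := congrArg (fun X : M₄ => β (X *ᵥ v) (j *ᵥ v)) h
    simp [-H2.sympBilin_apply, ← Matrix.mulVec_mulVec, Matrix.neg_mulVec, Matrix.mulVec_neg, k20, k43, g1, g4, g5, g8,
      g7, hv, hw, hvw, hvjw, g2, g3, g6, H98.beta_self] at h'

end Cfsg.Agent.H1.SpList
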