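import Cfsg.Agent.H1.SpList.Basic
import Cfsg.Agent.H98.MaximalSpWreath
import Cfsg.Agent.H97.SympSemisimple

/-!
Two classes absorbed by others: planes over two elements preserve a quadratic form, and tensor products with a
three-dimensional orthogonal factor over three elements preserve a decomposition.
-/

set_option autoImplicit false

open scoped MatrixGroups Matrix Kronecker

namespace Cfsg.Agent.H1.SpList

open Cfsg.Geo Cfsg.Agent.H98 H99.Asch

variable {F : Type*} [Field F] {m : ℕ}

local notation "V" => (Fin m ⊕ Fin m → F)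
local notation "Mat" => Matrix (Fin m ⊕ Fin m) (Fin m ⊕ Fin m) F
local notation "sG" => spGL m F
local notation "β" => H2.sympBilin m F

theorem even_finrank_nondeg [Finite F] {W : Submodule F V} (h : IsNondegenerateOn (sympForm m F) W) :
    Even (Module.finrank F W) := by
  refine H97.NondegOn.even_finrank (B := β) (H2.sympBilin_isAlt m F) fun v hv hall => ?_
  by_contra hv0
  obtain ⟨-, x, hx, hne⟩ := h v hv hv0
  exact hne (by rw [← H2.sympBilin_apply]; exact hall x hx)

/-- Planes over two elements: the count of non-zero components is a quadratic form. -/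
theorem decomposition_le_quad [Fintype F] (hq : Fintype.card F = 2) {t : ℕ} {D : Fin t → Submodule F V}
    (hD : IsNondegenerateMDecomposition (sympForm m F) 2 D) :
    ∃ Q : V → F, IsNondegenerateQuadraticForm Q ∧ (∀ u v, QuadraticMap.polar Q u v = sympForm m F u v) ∧
      decompositionStabilizer D ≤ quadSimilarityGroup Q := by
  classical
  have hdec := hD.decomp
  have h20 : (2 : F) = 0 := by
    have := FiniteField.cast_card_eq_zero F
    rw [hq] at this
    exact_mod_cast this
  have hone : ∀ x : F, x = 0 ∨ x = 1 := fun x => by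
    by_cases hx : x = 0
    · exact Or.inl hx
    · exact Or.inr (by simpa [hq] using FiniteField.pow_card_sub_one_eq_one x hx)
  let q : V → F := fun u => if u = 0 then 0 else 1
  have hq0 : q 0 = 0 := if_pos rfl
  have hpol : ∀ i, ∀ u ∈ D i, ∀ w ∈ D i, q (u + w) - q u - q w = β u w := by
    intro i u hu w hw
    by_cases hu0 : u = 0
    · rw [hu0, zero_add, hq0, map_zero, LinearMap.zero_apply]; ring
    by_cases hw0 : w = 0
    · rw [hw0, add_zero, hq0, map_zero]; ring
    have huw2 : u + u = 0 := by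
      rw [← two_smul F u, h20, zero_smul]
    by_cases he : u = w
    · subst he
      rw [huw2, hq0, beta_self]
      simp only [q, hu0, if_false]
      linear_combination -h20
    have hsum : u + w ≠ 0 := fun e => he (add_left_cancel (huw2.trans e.symm))
    have hne : β u w ≠ 0 := by
      intro h0
      have hli : LinearIndependent F ![u, w] := by
        rw [LinearIndependent.pair_iff]
        intro a b hab
        rcases hone a with rfl | rfl <;> rcases hone b with rfl | rfl <;> simp_all
      have hspan : Submodule.span F (Set.range ![u, w]) = D i := by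
        refine Submodule.eq_of_le_of_finrank_eq ?_ ?_
        · rw [Submodule.span_le]
          rintro _ ⟨j, rfl⟩
          fin_cases j <;> assumption
        · rw [finrank_span_eq_card hli, hdec.finrank_eq]
          simp
      obtain ⟨-, x, hx, hx0⟩ := hD.nondegenerate i u hu hu0
      rw [← hspan, Submodule.mem_span_range_iff_exists_fun] at hx
      obtain ⟨c, rfl⟩ := hx
      apply hx0
      rw [← H2.sympBilin_apply, map_sum, Fin.sum_univ_two]
      simp [h0, -H2.sympBilin_apply, beta_self]
    rw [(hone _).resolve_left hne]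
    simp only [q, hsum, hu0, hw0, if_false]
    linear_combination -h20
  let Q : V → F := fun v => ∑ i, q (comp hdec i v)
  have hpolQ : ∀ u v, QuadraticMap.polar Q u v = sympForm m F u v := by
    intro u v
    rw [← H2.sympBilin_apply, beta_comp hdec (fun i j hij a ha b hb => by
      rw [H2.sympBilin_apply]; exact hD.orthogonal i j hij a ha b hb) u v]
    simp only [QuadraticMap.polar, Q, map_add, ← Finset.sum_sub_distrib]
    exact Finset.sum_congr rfl fun i _ => hpol i _ (comp_mem hdec i u) _ (comp_mem hdec i v)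
  have hpfun : QuadraticMap.polar Q = sympForm m F := funext₂ hpolQ
  refine ⟨Q, ⟨?_, ?_, ?_⟩, hpolQ, ?_⟩
  · intro c v
    rcases hone c with rfl | rfl
    · simp [Q, hq0]
    · simp
  · rw [hpfun]
    constructor
    · intro x y v; simp only [← H2.sympBilin_apply, map_add, LinearMap.add_apply]
    · intro c x v; simp only [← H2.sympBilin_apply, map_smul, LinearMap.smul_apply, smul_eq_mul]
    · intro v x y; simp only [← H2.sympBilin_apply, map_add]
    · intro c v x; simp only [← H2.sympBilin_apply, map_smul, smul_eq_mul]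
  · rw [hpfun]
    intro v hv
    constructor
    · by_contra hc
      push Not at hc
      exact hv ((H2.sympBilin_nondegenerate m F).2 v fun x => by rw [H2.sympBilin_apply]; exact hc x)
    · by_contra hc
      push Not at hc
      exact hv ((H2.sympBilin_nondegenerate m F).1 v fun x => by rw [H2.sympBilin_apply]; exact hc x)
  · rintro g ⟨σ, hσ⟩
    refine ⟨1, fun v => ?_⟩
    rw [Units.val_one, one_mul]
    have hmem : ∀ i, ∀ x ∈ D i, (g : Mat) *ᵥ x ∈ D (σ i) := fun i x hx => by
      rw [← hσ i]; exact ⟨x, hx, by simp⟩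
    have hc : ∀ i, comp hdec (σ i) ((g : Mat) *ᵥ v) = (g : Mat) *ᵥ comp hdec i v := by
      intro i
      conv_lhs => rw [← sum_comp hdec v, Matrix.mulVec_sum, map_sum]
      rw [Finset.sum_eq_single i (fun j _ hj => comp_other hdec (fun e => hj (σ.injective e))
        (hmem j _ (comp_mem hdec j v))) (by simp), comp_same hdec (hmem i _ (comp_mem hdec i v))]
    simp only [Q]
    rw [← Equiv.sum_comp σ (fun i => q (comp hdec i ((g : Mat) *ᵥ v)))]
    refine Finset.sum_congr rfl fun i _ => ?_
    rw [hc i]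
    simp only [q]
    refine if_congr ⟨fun h => ?_, fun h => by rw [h, Matrix.mulVec_zero]⟩ rfl rfl
    exact gl_mulVec_injective g (h.trans (Matrix.mulVec_zero _).symm)

open TensorNM in
/-- A three-dimensional orthogonal factor over three elements. -/
theorem tensor_three_le_decomposition [Fintype F] (hq : Fintype.card F = 3) {n₁ : ℕ} (hn₁ : 2 ≤ n₁)
    (e : (Fin m ⊕ Fin m) ≃ Fin n₁ × Fin 3) (P : GL (Fin m ⊕ Fin m) F)
    {f₁ : (Fin n₁ → F) → (Fin n₁ → F) → F} {f₂ : (Fin 3 → F) → (Fin 3 → F) → F}
    (hf₁ : IsSymplecticForm f₁) (hf₂ : IsSymmetricForm f₂)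
    (hform : IsTensorFormStructure id (sympForm m F) f₁ f₂ e P) :
    ∃ D : Fin 3 → Submodule F V, IsNondegenerateMDecomposition (sympForm m F) n₁ D ∧
      tensorProductSubgroup n₁ 3 e P ⊓ sG ≤ decompositionStabilizer D := by
  classical
  obtain ⟨c, hc, hform⟩ := hform
  have hb₁ := hf₁.bilinear
  have hb₂ := hf₂.bilinear
  have hs₁ : Sesq (RingHom.id F) (-1 : F) f₁ := ⟨hb₁.add_left, hb₁.smul_left, fun x y => by
    rw [hf₁.skew y x]; simp⟩
  have hs₂ : Sesq (RingHom.id F) (1 : F) f₂ := ⟨hb₂.add_left, hb₂.smul_left, fun x y => by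
    rw [hf₂.symm y x]; simp⟩
  obtain ⟨w, ε, hε, hw, ho, hframe⟩ := three_frame hq hs₂ fun v hv => (hf₂.nondegenerate v hv).1
  let Φ := tensorEquiv e P
  have hT : ∀ x x' z z', sympForm m F (Φ (pure x z)) (Φ (pure x' z')) = c * (f₁ x x' * f₂ z z') := by
    intro x x' z z'
    rw [tensorEquiv_apply, tensorEquiv_apply, hform]
    rw [show (id : F → F) = ⇑(RingHom.id F) from rfl, formOfGram_pure, formOfGram_gramMatrix hs₁,
      formOfGram_gramMatrix hs₂]
  let L₀ : (Fin 3 → Fin n₁ → F) →ₗ[F] V :=
    Φ.toLinearMap ∘ₗ ∑ k, ((pure (F := F) (κ := Fin n₁) (κ' := Fin 3)).flip (w k)) ∘ₗ LinearMap.proj k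
  have hsingle : ∀ k x, L₀ (Pi.single k x) = Φ (pure x (w k)) := by
    intro k x
    simp [L₀, Pi.single_apply, apply_ite]
  have hLx : ∀ x, L₀ x = ∑ k, L₀ (Pi.single k (x k)) := fun x => by
    conv_lhs => rw [← Finset.univ_sum_single x]
    rw [map_sum]
  have hval : ∀ x k y, sympForm m F (L₀ x) (L₀ (Pi.single k y)) = c * (ε * f₁ (x k) y) := by
    intro x k y
    rw [hLx x, ← H2.sympBilin_apply, map_sum, LinearMap.sum_apply, Finset.sum_eq_single k (fun i _ hi => by
      rw [H2.sympBilin_apply, hsingle, hsingle, hT, ho i k hi, mul_zero, mul_zero]) (by simp),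
      H2.sympBilin_apply, hsingle, hsingle, hT, hw]
    ring
  have hinj : Function.Injective L₀ := by
    refine (injective_iff_map_eq_zero _).2 fun x hx => funext fun k => ?_
    by_contra hne
    obtain ⟨z, hz⟩ := (hf₁.nondegenerate _ hne).2
    have h1 := hval x k z
    rw [hx, ← H2.sympBilin_apply, map_zero, LinearMap.zero_apply] at h1
    exact mul_ne_zero hc (mul_ne_zero hε hz) h1.symm
  let L := L₀.linearEquivOfInjective hinj (by
    have := Fintype.card_congr e
    simp at this
    simp [Module.finrank_pi_fintype]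
    omega)
  have hLapp : ∀ x, L x = L₀ x := fun x => rfl
  refine ⟨summand L, ⟨⟨by omega, by omega, fun k => finrank_summand L k, ?_, ?_⟩, fun k v hv hv0 => ?_,
    fun i j hij u hu v hv => ?_⟩, fun g hg => ?_⟩
  · rw [iSupIndep_def]
    intro i
    rw [Submodule.disjoint_def]
    intro v hv hv'
    obtain ⟨x, rfl⟩ := (mem_summand L i v).1 hv
    have hle : (⨆ (j) (_ : j ≠ i), summand L j) ≤
        (LinearMap.ker (LinearMap.proj i : (Fin 3 → Fin n₁ → F) →ₗ[F] _)).comap L.symm.toLinearMap := by
      refine iSup₂_le fun j hj => ?_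
      intro u hu
      obtain ⟨y, rfl⟩ := (mem_summand L j u).1 hu
      simp [Pi.single_eq_of_ne hj.symm]
    have := hle hv'
    simp at this
    simp [this]
  · refine eq_top_iff.2 fun v _ => ?_
    obtain ⟨x, rfl⟩ := L.surjective v
    rw [hLapp, hLx]
    exact Submodule.sum_mem _ fun k _ => Submodule.mem_iSup_of_mem k ((mem_summand L k _).2 ⟨x k, rfl⟩)
  · obtain ⟨x, rfl⟩ := (mem_summand L k v).1 hv
    have hx : x ≠ 0 := fun e0 => hv0 (by simp [e0])
    obtain ⟨⟨a, ha⟩, b, hb⟩ := hf₁.nondegenerate x hx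
    refine ⟨⟨_, (mem_summand L k _).2 ⟨a, rfl⟩, ?_⟩, _, (mem_summand L k _).2 ⟨b, rfl⟩, ?_⟩
    · rw [hLapp, hLapp, hval, Pi.single_eq_same]; exact mul_ne_zero hc (mul_ne_zero hε ha)
    · rw [hLapp, hLapp, hval, Pi.single_eq_same]; exact mul_ne_zero hc (mul_ne_zero hε hb)
  · obtain ⟨x, rfl⟩ := (mem_summand L i u).1 hu
    obtain ⟨y, rfl⟩ := (mem_summand L j v).1 hv
    rw [hLapp, hLapp, hval, Pi.single_eq_of_ne hij.symm, hs₁.zero_left, mul_zero, mul_zero]
  · obtain ⟨a, b, hab⟩ := exists_action e P g hg.1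
    have hiso : ∀ x x' z z', f₁ (a x) (a x') * f₂ (b z) (b z') = f₁ x x' * f₂ z z' := by
      intro x x' z z'
      have h : sympForm m F ((g : Mat) *ᵥ Φ (pure x z)) ((g : Mat) *ᵥ Φ (pure x' z')) = _ := hg.2 _ _
      rw [hab, hab, hT, hT] at h
      exact mul_left_cancel₀ hc h
    have hne : (Pi.single ⟨0, by omega⟩ 1 : Fin n₁ → F) ≠ 0 := by simp
    obtain ⟨y₀, hy₀⟩ := (hf₁.nondegenerate _ hne).2
    set x₀ : Fin n₁ → F := Pi.single ⟨0, by omega⟩ 1
    have ha : f₁ (a x₀) (a y₀) ≠ 0 := fun h => by
      have h' := hiso x₀ y₀ (w 0) (w 0)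
      rw [h, zero_mul, hw] at h'
      exact mul_ne_zero hy₀ hε h'.symm
    obtain ⟨π, d, hd⟩ := hframe b (f₁ x₀ y₀ / f₁ (a x₀) (a y₀)) (div_ne_zero hy₀ ha) fun z z' => by
      rw [div_mul_eq_mul_div, eq_div_iff ha, mul_comm, hiso]
    refine mem_stabilizer_of L g π fun k x => (mem_summand L _ _).2 ⟨d k • a x, ?_⟩
    rw [hLapp, hLapp, hsingle, hsingle, hab, (hd k).2]
    simp only [map_smul, LinearMap.smul_apply]
    rfl

end Cfsg.Agent.H1.SpList
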