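import Cfsg.Agent.H1.SpList.Cases

/-!
A tensor decomposition with a four-dimensional orthogonal factor of plus type refines to one with three equal
factors, so its stabiliser in the symplectic group is not maximal.
-/

set_option autoImplicit false

open scoped MatrixGroups Matrix Kronecker

namespace Cfsg.Agent.H1.SpList

open Cfsg.Geo H99.Asch

variable {F : Type*} [Field F]

local notation "U₄" => (Fin 4 → F)
local notation "U₂" => (Fin 2 → F)

/-- The Gram matrix of the alternating form on the plane. -/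
def planeJ (F : Type*) [Field F] : Matrix (Fin 2) (Fin 2) F := !![0, 1; -1, 0]

/-- The determinant of two vectors of the plane. -/
def det2 (u v : U₂) : F := u 0 * v 1 - u 1 * v 0

theorem eq_smul_of_det2 {u v : U₂} (hv : v ≠ 0) (h : det2 u v = 0) : ∃ c : F, u = c • v := by
  simp only [det2] at h
  rcases eq_or_ne (v 0) 0 with h0 | h0
  · have h1 : v 1 ≠ 0 := fun h1 => hv (funext fun i => by fin_cases i <;> assumption)
    refine ⟨u 1 / v 1, funext fun i => ?_⟩
    rw [h0] at h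
    fin_cases i
    · simp_all
    · simp [h1]
  · refine ⟨u 0 / v 0, funext fun i => ?_⟩
    fin_cases i
    · simp [h0]
    · simp only [Pi.smul_apply, smul_eq_mul, Fin.mk_one]
      rw [div_mul_eq_mul_div, eq_div_iff h0]
      linear_combination -h

/-- The pure tensor in a basis indexed by pairs. -/
def pur (b : Fin 2 → Fin 2 → U₄) (u w : U₂) : U₄ := ∑ k, ∑ l, (u k * w l) • b k l

theorem pur_smul_left (b : Fin 2 → Fin 2 → U₄) (c : F) (u w : U₂) : pur b (c • u) w = c • pur b u w := by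
  simp [pur, Finset.smul_sum, smul_smul, mul_assoc]

theorem pur_smul_right (b : Fin 2 → Fin 2 → U₄) (c : F) (u w : U₂) : pur b u (c • w) = c • pur b u w := by
  simp [pur, Finset.smul_sum, smul_smul, mul_left_comm]

variable {f₂ : (Fin 4 → F) → (Fin 4 → F) → F}

/-- The form as a bilinear map. -/
def toBil {f₂ : (Fin 4 → F) → (Fin 4 → F) → F} (hf : IsSymmetricForm f₂) : U₄ →ₗ[F] U₄ →ₗ[F] F :=
  LinearMap.mk₂ F f₂ hf.bilinear.add_left hf.bilinear.smul_left hf.bilinear.add_right hf.bilinear.smul_right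

theorem toBil_apply (hf : IsSymmetricForm f₂) (u v : U₄) : toBil hf u v = f₂ u v := rfl

/-- A hyperbolic basis of a four-dimensional form of plus type. -/
theorem exists_plus_basis (h2 : (2 : F) ≠ 0) (hf : IsSymmetricForm f₂)
    (hplus : IsPlusTypeOn (fun v : U₄ => f₂ v v) ⊤) :
    ∃ b : Fin 2 → Fin 2 → U₄, ∀ i j k l, f₂ (b i j) (b k l) = planeJ F i k * planeJ F j l := by
  classical
  obtain ⟨U, -, hts, hdim⟩ := hplus
  have hU : Module.finrank F U = 2 := by simp at hdim; omega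
  let B := toBil hf
  let bU := Module.finBasisOfFinrankEq F U hU
  let u : Fin 2 → U₄ := fun i => (bU i : U₄)
  have hsym : ∀ x y, B x y = B y x := fun x y => hf.symm x y
  have hUU : ∀ i j, B (u i) (u j) = 0 := by
    intro i j
    have h1 : B (u i + u j) (u i + u j) = 0 := hts _ (U.add_mem (bU i).2 (bU j).2)
    have hi : B (u i) (u i) = 0 := hts _ (bU i).2
    have hj : B (u j) (u j) = 0 := hts _ (bU j).2
    simp only [map_add, LinearMap.add_apply] at h1
    rw [hi, hj, hsym (u j) (u i)] at h1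
    exact (mul_eq_zero.1 (show (2 : F) * B (u i) (u j) = 0 by linear_combination h1)).resolve_left h2
  have hdual : ∀ i i' : Fin 2, i ≠ i' → ∃ v : U₄, B v (u i) = 1 ∧ B v (u i') = 0 := by
    intro i i' hne
    obtain ⟨z, hz, hz0⟩ : ∃ z, B z (u i') = 0 ∧ B z (u i) ≠ 0 := by
      by_contra hc
      push Not at hc
      have hu' : u i' ≠ 0 := fun e => bU.ne_zero i' (Subtype.ext e)
      obtain ⟨z₁, hz₁⟩ := (hf.nondegenerate _ hu').1
      change B z₁ (u i') ≠ 0 at hz₁
      let c := B z₁ (u i) / B z₁ (u i')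
      have hrad : u i - c • u i' = 0 := by
        by_contra hne0
        obtain ⟨x, hx⟩ := (hf.nondegenerate _ hne0).1
        apply hx
        change B x (u i - c • u i') = 0
        have h1 := hc (x - (B x (u i') / B z₁ (u i')) • z₁) (by
          rw [map_sub, LinearMap.sub_apply, map_smul, LinearMap.smul_apply, smul_eq_mul,
            div_mul_cancel₀ _ hz₁, sub_self])
        rw [map_sub, LinearMap.sub_apply, map_smul, LinearMap.smul_apply, smul_eq_mul] at h1
        rw [map_sub, map_smul, smul_eq_mul]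
        have h2' : c * B x (u i') = B x (u i') / B z₁ (u i') * B z₁ (u i) := by
          simp only [c]; ring
        rw [h2']
        exact h1
      have h3 : bU i - c • bU i' = 0 := Subtype.ext hrad
      have h4 := congrArg (fun x => bU.repr x i) h3
      simp [hne] at h4
    refine ⟨(B z (u i))⁻¹ • z, ?_, ?_⟩
    · rw [map_smul, LinearMap.smul_apply, smul_eq_mul, inv_mul_cancel₀ hz0]
    · rw [map_smul, LinearMap.smul_apply, hz, smul_zero]
  obtain ⟨v0, h00, h01⟩ := hdual 0 1 (by decide)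
  obtain ⟨v1, h11, h10⟩ := hdual 1 0 (by decide)
  let w0 := v0 - (B v0 v0 / 2) • u 0 - (B v0 v1 / 2) • u 1
  let w1 := v1 - (B v1 v0 / 2) • u 0 - (B v1 v1 / 2) • u 1
  have e : ∀ x a c : U₄, ∀ p r : F, B (x - p • a - r • c) = B x - p • B a - r • B c := by
    intro x a c p r; simp [map_sub, map_smul]
  have hv : ∀ x : U₄, B (u 0) x = B x (u 0) ∧ B (u 1) x = B x (u 1) := fun x => ⟨hsym _ _, hsym _ _⟩
  have hwu : B w0 (u 0) = 1 ∧ B w0 (u 1) = 0 ∧ B w1 (u 0) = 0 ∧ B w1 (u 1) = 1 := by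
    simp [w0, w1, e, hUU, h00, h01, h10, h11]
  have hww : B w0 w0 = 0 ∧ B w0 w1 = 0 ∧ B w1 w1 = 0 := by
    have hs : B v1 v0 = B v0 v1 := hsym _ _
    simp only [w0, w1, e, map_sub, map_smul, LinearMap.sub_apply, LinearMap.smul_apply, smul_eq_mul, hUU,
      (hv v0).1, (hv v0).2, (hv v1).1, (hv v1).2, h00, h01, h10, h11, hs]
    refine ⟨?_, ?_, ?_⟩ <;> field_simp <;> ring
  obtain ⟨a00, a01, a10, a11⟩ := hwu
  obtain ⟨c00, c01, c11⟩ := hww
  refine ⟨![![u 0, u 1], ![-w1, w0]], fun i j k l => ?_⟩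
  show B _ _ = _
  fin_cases i <;> fin_cases j <;> fin_cases k <;> fin_cases l <;>
    simp [planeJ, map_neg, hUU, a00, a01, a10, a11, c00, c01, c11, hsym (u 0) w0, hsym (u 0) w1,
      hsym (u 1) w0, hsym (u 1) w1, hsym w1 w0]

variable {b : Fin 2 → Fin 2 → Fin 4 → F}

theorem form_pur (hf : IsSymmetricForm f₂) (hb : ∀ i j k l, f₂ (b i j) (b k l) = planeJ F i k * planeJ F j l)
    (u w u' w' : U₂) : f₂ (pur b u w) (pur b u' w') = det2 u u' * det2 w w' := by
  simp only [pur, Fin.sum_univ_two, hf.bilinear.add_left, hf.bilinear.add_right, hf.bilinear.smul_left,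
    hf.bilinear.smul_right, hb]
  simp [planeJ, det2]
  ring

theorem span_plus_basis (hb : ∀ i j k l, f₂ (b i j) (b k l) = planeJ F i k * planeJ F j l)
    (hf : IsSymmetricForm f₂) (z : U₄) : ∃ a : Fin 2 → Fin 2 → F, z = ∑ k, ∑ l, a k l • b k l := by
  let g : Fin 2 × Fin 2 → U₄ := fun p => b p.1 p.2
  have li : LinearIndependent F g := Fintype.linearIndependent_iff.2 fun a ha p => by
    have h1 := congrArg (fun v => toBil hf v (b (p.1 + 1) (p.2 + 1))) ha
    have hz : f₂ 0 (b (p.1 + 1) (p.2 + 1)) = 0 := by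
      rw [← zero_smul F (0 : U₄), hf.bilinear.smul_left, zero_mul]
    simp only [g, toBil_apply, hz, Fintype.sum_prod_type, Fin.sum_univ_two, hf.bilinear.add_left,
      hf.bilinear.smul_left, hb] at h1
    obtain ⟨i, j⟩ := p
    fin_cases i <;> fin_cases j <;> simpa [planeJ] using h1
  obtain ⟨a, ha⟩ := (Submodule.mem_span_range_iff_exists_fun F).1
    (li.span_eq_top_of_card_eq_finrank' (by simp) ▸ (Submodule.mem_top : z ∈ ⊤))
  exact ⟨fun k l => a (k, l), by rw [← ha, Fintype.sum_prod_type]⟩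

/-- Singular vectors are pure tensors. -/
theorem exists_pur (h2 : (2 : F) ≠ 0) (hf : IsSymmetricForm f₂)
    (hb : ∀ i j k l, f₂ (b i j) (b k l) = planeJ F i k * planeJ F j l) {z : U₄} (hz : f₂ z z = 0) :
    ∃ u w : U₂, z = pur b u w := by
  obtain ⟨a, rfl⟩ := span_plus_basis hb hf z
  simp only [Fin.sum_univ_two, hf.bilinear.add_left, hf.bilinear.add_right, hf.bilinear.smul_left,
    hf.bilinear.smul_right, hb] at hz
  simp [planeJ] at hz
  have hd : a 0 0 * a 1 1 = a 0 1 * a 1 0 := by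
    refine mul_left_cancel₀ h2 ?_
    linear_combination hz
  by_cases h0 : a 0 0 = 0
  · rw [h0, zero_mul] at hd
    rcases mul_eq_zero.1 hd.symm with h | h
    · exact ⟨![0, 1], ![a 1 0, a 1 1], by simp [pur, h, h0]⟩
    · exact ⟨![a 0 1, a 1 1], ![0, 1], by simp [pur, h, h0]⟩
  · refine ⟨![a 0 0, a 1 0], ![1, a 0 1 / a 0 0], ?_⟩
    have h11 : a 1 0 * (a 0 1 / a 0 0) = a 1 1 := by field_simp; linear_combination -hd
    have h01 : a 0 0 * (a 0 1 / a 0 0) = a 0 1 := by field_simp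
    simp [pur, h11, h01]

/-- Similitudes of the hyperbolic four-space. -/
theorem similitude_pure (h2 : (2 : F) ≠ 0) (hf : IsSymmetricForm f₂)
    (hb : ∀ i j k l, f₂ (b i j) (b k l) = planeJ F i k * planeJ F j l) (B : U₄ →ₗ[F] U₄) {μ : F} (hμ : μ ≠ 0)
    (hB : ∀ z z', f₂ (B z) (B z') = μ * f₂ z z') :
    ∃ Y Z : Fin 2 → U₂, det2 (Y 0) (Y 1) ≠ 0 ∧ det2 (Z 0) (Z 1) ≠ 0 ∧
      ((∀ i j, B (b i j) = pur b (Y i) (Z j)) ∨ ∀ i j, B (b i j) = pur b (Y j) (Z i)) := by
  have hv : ∀ i j k l, f₂ (B (b i j)) (B (b k l)) = μ * (planeJ F i k * planeJ F j l) := fun i j k l => by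
    rw [hB, hb]
  have hiso : ∀ i j, f₂ (B (b i j)) (B (b i j)) = 0 := fun i j => by
    rw [hv]; fin_cases i <;> simp [planeJ]
  obtain ⟨x0, y0, e0⟩ := exists_pur h2 hf hb (hiso 0 0)
  obtain ⟨x1, y1, e1⟩ := exists_pur h2 hf hb (hiso 1 1)
  have hd : det2 x0 x1 * det2 y0 y1 = μ := by
    rw [← form_pur hf hb, ← e0, ← e1, hv]; simp [planeJ]
  have hx : det2 x0 x1 ≠ 0 := fun h => hμ (by rw [← hd, h, zero_mul])
  have hy : det2 y0 y1 ≠ 0 := fun h => hμ (by rw [← hd, h, mul_zero])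
  have hx0 : x0 ≠ 0 := fun h => hx (by simp [h, det2])
  have hx1 : x1 ≠ 0 := fun h => hx (by simp [h, det2])
  have hy0 : y0 ≠ 0 := fun h => hy (by simp [h, det2])
  have hy1 : y1 ≠ 0 := fun h => hy (by simp [h, det2])
  have hmid : ∀ i j, i ≠ j → ∃ a : F, B (b i j) = a • pur b x0 y1 ∨ B (b i j) = a • pur b x1 y0 := by
    intro i j hij
    obtain ⟨u, w, e⟩ := exists_pur h2 hf hb (hiso i j)
    have o0 : det2 u x0 * det2 w y0 = 0 := by
      rw [← form_pur hf hb, ← e, ← e0, hv]; fin_cases i <;> fin_cases j <;> simp_all [planeJ]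
    have o1 : det2 u x1 * det2 w y1 = 0 := by
      rw [← form_pur hf hb, ← e, ← e1, hv]; fin_cases i <;> fin_cases j <;> simp_all [planeJ]
    rcases mul_eq_zero.1 o0 with hu | hw
    · obtain ⟨c, rfl⟩ := eq_smul_of_det2 hx0 hu
      by_cases hc : c = 0
      · exact ⟨0, Or.inl (by rw [e, hc]; simp [pur])⟩
      obtain ⟨d, rfl⟩ := eq_smul_of_det2 hy1 ((mul_eq_zero.1 o1).resolve_left (by
        simp only [det2, Pi.smul_apply, smul_eq_mul]
        intro h
        exact hx ((mul_eq_zero.1 (show c * det2 x0 x1 = 0 by simp only [det2]; linear_combination h)).resolve_left hc)))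
      exact ⟨c * d, Or.inl (by rw [e, pur_smul_left, pur_smul_right, smul_smul])⟩
    · obtain ⟨c, rfl⟩ := eq_smul_of_det2 hy0 hw
      by_cases hc : c = 0
      · exact ⟨0, Or.inl (by rw [e, hc]; simp [pur])⟩
      obtain ⟨d, rfl⟩ := eq_smul_of_det2 hx1 ((mul_eq_zero.1 o1).resolve_right (by
        simp only [det2, Pi.smul_apply, smul_eq_mul]
        intro h
        exact hy ((mul_eq_zero.1 (show c * det2 y0 y1 = 0 by simp only [det2]; linear_combination h)).resolve_left hc)))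
      exact ⟨d * c, Or.inr (by rw [e, pur_smul_left, pur_smul_right, smul_smul])⟩
  have hsm : ∀ (a c : F) (p q : U₄), f₂ (a • p) (c • q) = a * c * f₂ p q := fun a c p q => by
    rw [hf.bilinear.smul_left, hf.bilinear.smul_right, mul_assoc]
  have hpair : f₂ (B (b 0 1)) (B (b 1 0)) = -μ := by rw [hv]; simp [planeJ]
  have hflip : det2 y1 y0 = -det2 y0 y1 ∧ det2 x1 x0 = -det2 x0 x1 ∧ det2 y1 y1 = 0 ∧ det2 x1 x1 = 0 := by
    refine ⟨?_, ?_, ?_, ?_⟩ <;> simp only [det2] <;> ring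
  obtain ⟨hfy, hfx, hfy', hfx'⟩ := hflip
  obtain ⟨a, ha⟩ := hmid 0 1 (by decide)
  obtain ⟨c, hc⟩ := hmid 1 0 (by decide)
  rcases ha with ha | ha <;> rcases hc with hc | hc <;> rw [ha, hc, hsm, form_pur hf hb] at hpair
  · simp [hfy', hμ] at hpair
  · have hac : a * c = 1 := mul_right_cancel₀ hμ (by
      rw [hfy] at hpair; linear_combination -hpair + (-(a * c)) * hd)
    have hc0 : c ≠ 0 := fun h => one_ne_zero (hac.symm.trans (by rw [h, mul_zero]))
    have ha0 : a ≠ 0 := fun h => one_ne_zero (hac.symm.trans (by rw [h, zero_mul]))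
    refine ⟨![x0, c • x1], ![y0, a • y1], ?_, ?_, Or.inl fun i j => ?_⟩
    · simp [det2]; intro h; exact mul_ne_zero hc0 hx (by simp only [det2]; linear_combination h)
    · simp [det2]; intro h; exact mul_ne_zero ha0 hy (by simp only [det2]; linear_combination h)
    fin_cases i <;> fin_cases j <;> simp [e0, e1, ha, hc, pur_smul_left, pur_smul_right, smul_smul, mul_comm c a, hac]
  · have hac : a * c = 1 := mul_right_cancel₀ hμ (by
      rw [hfx] at hpair; linear_combination -hpair + (-(a * c)) * hd)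
    have hc0 : c ≠ 0 := fun h => one_ne_zero (hac.symm.trans (by rw [h, mul_zero]))
    have ha0 : a ≠ 0 := fun h => one_ne_zero (hac.symm.trans (by rw [h, zero_mul]))
    refine ⟨![x0, a • x1], ![y0, c • y1], ?_, ?_, Or.inr fun i j => ?_⟩
    · simp [det2]; intro h; exact mul_ne_zero ha0 hx (by simp only [det2]; linear_combination h)
    · simp [det2]; intro h; exact mul_ne_zero hc0 hy (by simp only [det2]; linear_combination h)
    fin_cases i <;> fin_cases j <;> simp [e0, e1, ha, hc, pur_smul_left, pur_smul_right, smul_smul, mul_comm c a, hac]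
  · simp [hfx', hμ] at hpair

local notation "V₈" => (Fin 4 ⊕ Fin 4 → F)
local notation "K₈" => (Fin 3 → Fin 2)

/-- The tensor stabiliser with a plus factor is not maximal. -/
theorem not_plus_of_maximal [Fintype F] (hq : Odd (Fintype.card F)) {H : Subgroup (GL (Fin 4 ⊕ Fin 4) F)}
    (hH : IsMaximalIn (spGL 4 F) H) {e : (Fin 4 ⊕ Fin 4) ≃ Fin 2 × Fin 4} {P : GL (Fin 4 ⊕ Fin 4) F}
    {f₁ : U₂ → U₂ → F} {f₂ : U₄ → U₄ → F} (hf₁ : IsSymplecticForm f₁) (hf₂ : IsSymmetricForm f₂)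
    (hform : IsTensorFormStructure id (sympForm 4 F) f₁ f₂ e P)
    (heq : H = tensorProductSubgroup 2 4 e P ⊓ spGL 4 F) :
    ¬ IsPlusTypeOn (fun v : U₄ => f₂ v v) ⊤ := by
  classical
  intro hplus
  have h2 := two_ne_zero_of_card_odd hq
  obtain ⟨b, hb⟩ := exists_plus_basis h2 hf₂ hplus
  obtain ⟨c, hc, hform⟩ := hform
  let Φ := TensorNM.tensorEquiv e P
  have hs₁ : TensorNM.Sesq (RingHom.id F) (-1 : F) f₁ := ⟨hf₁.bilinear.add_left, hf₁.bilinear.smul_left,
    fun x y => by rw [hf₁.skew y x]; simp⟩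
  have hs₂ : TensorNM.Sesq (RingHom.id F) (1 : F) f₂ := ⟨hf₂.bilinear.add_left, hf₂.bilinear.smul_left,
    fun x y => by rw [hf₂.symm y x]; simp⟩
  have hT : ∀ x x' z z', sympForm 4 F (Φ (TensorNM.pure x z)) (Φ (TensorNM.pure x' z')) =
      c * (f₁ x x' * f₂ z z') := by
    intro x x' z z'
    rw [TensorNM.tensorEquiv_apply, TensorNM.tensorEquiv_apply, hform]
    rw [show (id : F → F) = ⇑(RingHom.id F) from rfl, TensorNM.formOfGram_pure,
      TensorNM.formOfGram_gramMatrix hs₁, TensorNM.formOfGram_gramMatrix hs₂]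
  set δ : Fin 2 → U₂ := fun i => Pi.single i 1
  let d := f₁ (δ 0) (δ 1)
  have hJ : ∀ i j, f₁ (δ i) (δ j) = d * planeJ F i j := by
    intro i j
    fin_cases i <;> fin_cases j <;> simp [planeJ, d, hf₁.alternating, hf₁.skew (δ 1) (δ 0)]
  have hd : d ≠ 0 := by
    intro h0
    obtain ⟨⟨x, hx⟩, -⟩ := hf₁.nondegenerate (δ 1) (by simp [δ])
    apply hx
    have hxe : x = x 0 • δ 0 + x 1 • δ 1 := by funext i; fin_cases i <;> simp [δ]
    rw [hxe, hf₁.bilinear.add_left, hf₁.bilinear.smul_left, hf₁.bilinear.smul_left, hf₁.alternating]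
    change x 0 * d + _ = 0
    rw [h0]; ring
  -- the basis indexed by triples
  let v : K₈ → V₈ := fun a => Φ (TensorNM.pure (δ (a 0)) (b (a 1) (a 2)))
  let K := c * d
  have hK : K ≠ 0 := mul_ne_zero hc hd
  have hvv : ∀ a a', sympForm 4 F (v a) (v a') = K * ∏ i, planeJ F (a i) (a' i) := by
    intro a a'
    rw [hT, hb, hJ, Fin.prod_univ_three]
    simp only [K]; ring
  have hli : LinearIndependent F v := Fintype.linearIndependent_iff.2 fun g hg a => by
    have h1 := congrArg (fun x => H2.sympBilin 4 F x (v fun i => a i + 1)) hg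
    simp only [map_sum, map_smul, LinearMap.sum_apply, LinearMap.smul_apply, map_zero, LinearMap.zero_apply,
      H2.sympBilin_apply, hvv, smul_eq_mul] at h1
    rw [Finset.sum_eq_single a (fun a' _ hne => by
      obtain ⟨i, hi⟩ := Function.ne_iff.1 hne
      rw [Finset.prod_eq_zero (Finset.mem_univ i) ?_, mul_zero, mul_zero]
      rcases Fin.exists_fin_two.1 ⟨a i, rfl⟩ with h | h <;>
      rcases Fin.exists_fin_two.1 ⟨a' i, rfl⟩ with h' | h' <;> simp_all [planeJ]) (by simp)] at h1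
    refine (mul_eq_zero.1 h1).resolve_right (mul_ne_zero hK (Finset.prod_ne_zero_iff.2 fun i _ => ?_))
    rcases Fin.exists_fin_two.1 ⟨a i, rfl⟩ with h | h <;> simp [h, planeJ]
  let bV := basisOfLinearIndependentOfCardEqFinrank hli (by simp)
  have hbV : ∀ a, bV a = v a := fun a => by simp [bV]
  let e' : (Fin 4 ⊕ Fin 4) ≃ K₈ := Fintype.equivOfCardEq (by simp)
  let P' : GL (Fin 4 ⊕ Fin 4) F := H98.glOfEquiv ((LinearEquiv.funCongrLeft F F e'.symm).trans bV.equivFun.symm)
  have hP' : ∀ X : K₈ → F, (P' : Matrix (Fin 4 ⊕ Fin 4) (Fin 4 ⊕ Fin 4) F) *ᵥ (X ∘ e') = ∑ a, X a • v a := by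
    intro X
    rw [H98.glOfEquiv_mulVec, LinearEquiv.trans_apply, Module.Basis.equivFun_symm_apply]
    exact Finset.sum_congr rfl fun a _ => by simp [hbV, LinearEquiv.funCongrLeft, LinearMap.funLeft]
  -- membership from the action on the basis
  have hmem : ∀ (g : GL (Fin 4 ⊕ Fin 4) F) (M : GL K₈ F), M ∈ tensorWreathStandard 2 3 F →
      (∀ a, (g : Matrix (Fin 4 ⊕ Fin 4) (Fin 4 ⊕ Fin 4) F) *ᵥ v a = ∑ a', (M : Matrix K₈ K₈ F) a' a • v a') →
      g ∈ tensorWreathSubgroup 2 3 e' P' := by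
    intro g M hM hg
    refine ⟨glReindex e'.symm M, ⟨M, hM, rfl⟩, ?_⟩
    rw [MulEquiv.coe_toMonoidHom, MulAut.conj_apply, mul_inv_eq_iff_eq_mul]
    refine H98.gl_ext fun x => ?_
    obtain ⟨X, rfl⟩ : ∃ X : K₈ → F, x = X ∘ e' := ⟨x ∘ e'.symm, by funext i; simp⟩
    rw [Units.val_mul, Units.val_mul, ← Matrix.mulVec_mulVec, ← Matrix.mulVec_mulVec, hP', Matrix.mulVec_sum]
    simp only [Matrix.mulVec_smul, hg]
    rw [show ((glReindex e'.symm M : GL (Fin 4 ⊕ Fin 4) F) : Matrix _ _ F) *ᵥ (X ∘ e') =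
        ((M : Matrix K₈ K₈ F) *ᵥ X) ∘ e' by
      show Matrix.reindex e'.symm e'.symm (M : Matrix K₈ K₈ F) *ᵥ _ = _
      rw [Matrix.reindex_apply, Equiv.symm_symm, Matrix.submatrix_mulVec_equiv]
      congr 2; funext p; simp, hP']
    simp only [Matrix.mulVec, dotProduct, Finset.smul_sum, Finset.sum_smul, smul_smul]
    rw [Finset.sum_comm]
    exact Finset.sum_congr rfl fun a _ => Finset.sum_congr rfl fun a' _ => by rw [mul_comm]
  have hperm : ∀ σ : Equiv.Perm (Fin 3), ∃ M : GL K₈ F, IsFactorPermutation 2 3 M ∧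
      (M : Matrix K₈ K₈ F) = permMat σ := by
    intro σ
    exact ⟨permUnit σ, ⟨σ, fun x y => rfl⟩, rfl⟩
  -- the tensor stabiliser lies in the wreath product
  have hle : H ≤ tensorWreathSubgroup 2 3 e' P' := by
    intro g hg
    have hgS : g ∈ spGL 4 F := hH.1.le hg
    rw [heq] at hg
    obtain ⟨a, bm, hab⟩ := TensorNM.exists_action e P g hg.1
    have hiso : ∀ x x' z z', f₁ (a x) (a x') * f₂ (bm z) (bm z') = f₁ x x' * f₂ z z' := by
      intro x x' z z'
      have h : sympForm 4 F ((g : Matrix (Fin 4 ⊕ Fin 4) (Fin 4 ⊕ Fin 4) F) *ᵥ Φ (TensorNM.pure x z))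
          ((g : Matrix (Fin 4 ⊕ Fin 4) (Fin 4 ⊕ Fin 4) F) *ᵥ Φ (TensorNM.pure x' z')) = _ := hgS _ _
      rw [hab, hab, hT, hT] at h
      exact mul_left_cancel₀ hc h
    have ha : f₁ (a (δ 0)) (a (δ 1)) ≠ 0 := fun h => by
      have h' := hiso (δ 0) (δ 1) (b 0 0) (b 1 1)
      rw [h, zero_mul, hb] at h'
      exact mul_ne_zero hd (by simp [planeJ]) h'.symm
    obtain ⟨Y, Z, hY, hZ, hbm⟩ := similitude_pure h2 hf₂ hb bm (div_ne_zero hd ha) fun z z' => by
      rw [div_mul_eq_mul_div, eq_div_iff ha, mul_comm]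
      exact hiso _ _ _ _
    let A : Matrix (Fin 2) (Fin 2) F := Matrix.of fun i j => a (δ j) i
    let Ym : Matrix (Fin 2) (Fin 2) F := Matrix.of fun i j => Y j i
    let Zm : Matrix (Fin 2) (Fin 2) F := Matrix.of fun i j => Z j i
    have hA : A.det ≠ 0 := by
      intro h0
      apply ha
      rw [← TensorNM.formOfGram_gramMatrix hs₁]
      simp only [formOfGram, gramMatrix, Fin.sum_univ_two, RingHom.id_apply]
      change _ + _ * f₁ (δ 0) (δ 1) * _ + (_ * f₁ (δ 1) (δ 0) * _ + _) = _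
      simp only [A, Matrix.det_fin_two, Matrix.of_apply] at h0
      rw [hJ 0 1, hJ 1 0]
      simp [hf₁.alternating, planeJ]
      linear_combination d * h0
    have hYm : Ym.det ≠ 0 := by
      simpa [Ym, Matrix.det_fin_two, det2, mul_comm] using hY
    have hZm : Zm.det ≠ 0 := by
      simpa [Zm, Matrix.det_fin_two, det2, mul_comm] using hZ
    let gs : Fin 3 → GL (Fin 2) F :=
      ![Matrix.GeneralLinearGroup.mkOfDetNeZero A hA, Matrix.GeneralLinearGroup.mkOfDetNeZero Ym hYm,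
        Matrix.GeneralLinearGroup.mkOfDetNeZero Zm hZm]
    have hpure : tpowUnit gs ∈ tensorWreathStandard 2 3 F :=
      Subgroup.subset_closure (Or.inl ⟨gs, fun _ _ => rfl⟩)
    have himg : ∀ t : K₈, (g : Matrix (Fin 4 ⊕ Fin 4) (Fin 4 ⊕ Fin 4) F) *ᵥ v t =
        ∑ r, ∑ k, ∑ l, (a (δ (t 0)) r * (fun p : U₂ × U₂ => p.1 k * p.2 l)
          (if hbm' : (∀ i j, bm (b i j) = pur b (Y i) (Z j)) then (Y (t 1), Z (t 2)) else (Y (t 2), Z (t 1)))) •
            v ![r, k, l] := by
      intro t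
      rw [show v t = Φ (TensorNM.pure (δ (t 0)) (b (t 1) (t 2))) from rfl, hab]
      have hax : a (δ (t 0)) = ∑ r, a (δ (t 0)) r • δ r := by
        funext i; fin_cases i <;> simp [δ, Fin.sum_univ_two]
      conv_lhs => rw [hax]
      split
      · next h =>
        rw [h]
        simp [pur, v, Φ, map_sum, map_smul, LinearMap.sum_apply, Finset.smul_sum, smul_smul]
      · next h =>
        rw [hbm.resolve_left h]
        simp [pur, v, Φ, map_sum, map_smul, LinearMap.sum_apply, Finset.smul_sum, smul_smul]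
    have hsum : ∀ G : K₈ → V₈, ∑ x, G x = ∑ r, ∑ k, ∑ l, G ![r, k, l] := by
      intro G
      let E : Fin 2 × Fin 2 × Fin 2 ≃ K₈ :=
        { toFun := fun p => ![p.1, p.2.1, p.2.2]
          invFun := fun x => (x 0, x 1, x 2)
          left_inv := fun p => by simp
          right_inv := fun x => by funext i; fin_cases i <;> rfl }
      rw [← Equiv.sum_comp E, Fintype.sum_prod_type]
      exact Finset.sum_congr rfl fun r _ => Fintype.sum_prod_type _
    by_cases hcase : ∀ i j, bm (b i j) = pur b (Y i) (Z j)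
    · refine hmem g (tpowUnit gs) hpure fun t => ?_
      rw [himg, hsum]
      simp only [dif_pos hcase]
      refine Finset.sum_congr rfl fun r _ => Finset.sum_congr rfl fun k _ => Finset.sum_congr rfl fun l _ => ?_
      congr 1
      simp [tpowUnit, tpow_apply, Fin.prod_univ_three, gs, A, Ym, Zm, mul_assoc]
    · obtain ⟨S, hS, hSv⟩ := hperm (Equiv.swap 1 2)
      refine hmem g (tpowUnit gs * S) (Subgroup.mul_mem _ hpure (Subgroup.subset_closure (Or.inr hS))) fun t => ?_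
      rw [himg, hsum]
      simp only [dif_neg hcase, Units.val_mul, hSv, mul_permMat_apply]
      refine Finset.sum_congr rfl fun r _ => Finset.sum_congr rfl fun k _ => Finset.sum_congr rfl fun l _ => ?_
      congr 1
      simp [tpowUnit, tpow_apply, Fin.prod_univ_three, gs, A, Ym, Zm, mul_assoc, Equiv.swap_apply_def]
  -- an element of the wreath product outside
  obtain ⟨S, hS, hSv⟩ := hperm (Equiv.swap 0 1)
  let s := P' * glReindex e'.symm S * P'⁻¹
  have hsW : s ∈ tensorWreathSubgroup 2 3 e' P' :=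
    ⟨glReindex e'.symm S, ⟨S, Subgroup.subset_closure (Or.inr hS), rfl⟩, rfl⟩
  have hsv : ∀ t : K₈, (s : Matrix (Fin 4 ⊕ Fin 4) (Fin 4 ⊕ Fin 4) F) *ᵥ v t = v (t ∘ (Equiv.swap 0 1 : Equiv.Perm (Fin 3))) := by
    intro t
    have hvt : ∀ t : K₈, (P' : Matrix (Fin 4 ⊕ Fin 4) (Fin 4 ⊕ Fin 4) F) *ᵥ ((Pi.single t 1 : K₈ → F) ∘ e') = v t := by
      intro t; rw [hP']; simp [Pi.single_apply]
    simp only [s, Units.val_mul, ← Matrix.mulVec_mulVec]
    rw [← hvt t, H98.gl_inv_mulVec]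
    rw [show ((glReindex e'.symm S : GL (Fin 4 ⊕ Fin 4) F) : Matrix _ _ F) *ᵥ ((Pi.single t 1 : K₈ → F) ∘ e') =
        ((S : Matrix K₈ K₈ F) *ᵥ Pi.single t 1) ∘ e' by
      show Matrix.reindex e'.symm e'.symm (S : Matrix K₈ K₈ F) *ᵥ _ = _
      rw [Matrix.reindex_apply, Equiv.symm_symm, Matrix.submatrix_mulVec_equiv]
      congr 2; funext p; simp, ← hvt (t ∘ (Equiv.swap 0 1 : Equiv.Perm (Fin 3)))]
    congr 2
    funext x
    rw [Matrix.mulVec_single_one, hSv, Matrix.col_apply]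
    simp only [permMat, Matrix.of_apply, Pi.single_apply]
    refine if_congr ⟨fun h => ?_, fun h => ?_⟩ rfl rfl <;> subst h <;> funext i <;> simp
  have hsS : s ∈ spGL 4 F := by
    have hB : (H2.sympBilin 4 F).compl₁₂ (Matrix.mulVecLin (s : Matrix (Fin 4 ⊕ Fin 4) (Fin 4 ⊕ Fin 4) F))
        (Matrix.mulVecLin (s : Matrix (Fin 4 ⊕ Fin 4) (Fin 4 ⊕ Fin 4) F)) = H2.sympBilin 4 F := by
      refine LinearMap.ext_basis bV bV fun x y => ?_
      simp only [LinearMap.compl₁₂_apply, Matrix.mulVecLin_apply, hbV, hsv, H2.sympBilin_apply, hvv]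
      exact congrArg _ (Equiv.prod_comp (Equiv.swap 0 1 : Equiv.Perm (Fin 3)) fun i => planeJ F (x i) (y i))
    intro x y
    have h := LinearMap.congr_fun₂ hB x y
    simpa using h
  have hsH : s ∈ H := by
    rcases hH.2 (tensorWreathSubgroup 2 3 e' P' ⊓ spGL 4 F) (le_inf hle hH.1.le) inf_le_right with h | h
    · exact h ▸ ⟨hsW, hsS⟩
    · exact absurd (inf_eq_right.1 h) (sp_not_le_wreath (by omega) (by omega) e' P')
  rw [heq] at hsH
  obtain ⟨a, bm, hab⟩ := TensorNM.exists_action e P s hsH.1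
  have h1 : (s : Matrix (Fin 4 ⊕ Fin 4) (Fin 4 ⊕ Fin 4) F) *ᵥ Φ (TensorNM.pure (δ 0) (b 0 0 + b 1 1)) =
      Φ (TensorNM.pure (δ 0) (b 0 0) + TensorNM.pure (δ 1) (b 0 1)) := by
    rw [map_add, map_add, Matrix.mulVec_add, map_add]
    have ea := hsv ![0, 0, 0]
    have eb := hsv ![0, 1, 1]
    simp [v, Equiv.swap_apply_def] at ea eb
    rw [ea, eb]
  rw [hab] at h1
  have h3 := Φ.injective h1
  -- a tensor of rank two is not pure
  have hcoord : ∀ i : Fin 2, a (δ 0) i • bm (b 0 0 + b 1 1) = if i = 0 then b 0 0 else b 0 1 := by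
    intro i
    funext j
    have := congrFun h3 (i, j)
    fin_cases i <;> simpa [TensorNM.pure, δ] using this
  set y := bm (b 0 0 + b 1 1)
  have e0 : a (δ 0) 0 • y = b 0 0 := (hcoord 0).trans (if_pos rfl)
  have e1 : a (δ 0) 1 • y = b 0 1 := (hcoord 1).trans (if_neg (by decide))
  have h4 : f₂ (b 0 0) (b 1 1) * a (δ 0) 1 = 0 := by
    have : toBil hf₂ (a (δ 0) 1 • b 0 0) (b 1 1) = 0 := by
      rw [← e0, smul_comm, e1, map_smul, LinearMap.smul_apply, toBil_apply, hb]
      simp [planeJ]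
    rw [map_smul, LinearMap.smul_apply, toBil_apply, smul_eq_mul] at this
    rw [mul_comm]; exact this
  rw [hb] at h4
  simp [planeJ] at h4
  rw [h4, zero_smul] at e1
  have := hb 0 1 1 0
  rw [← e1] at this
  have hz : toBil hf₂ 0 (b 1 0) = 0 := by rw [map_zero, LinearMap.zero_apply]
  rw [toBil_apply, this] at hz
  simp [planeJ] at hz

end Cfsg.Agent.H1.SpList
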